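import Cfsg.Agent.Lib.SFourFree.Offender
import Cfsg.Agent.Lib.ThompsonJ.Basic
import Cfsg.Agent.S0607
import Mathlib.GroupTheory.Sylow

/-!
The normal subgroup `⟨Ω₁Z(S)^{N(J(S))}⟩` of `S₄`-free solvable groups of characteristic 2, and the
factorisation `N(J(S)) C(Ω₁Z(S))`.
-/

set_option autoImplicit false
set_option linter.style.haveILetI false

namespace CfsgLib.SFourFree

open Cfsg

universe u

section Transfer

variable {G : Type u} [Group G] {H : Type*} [Group H]

/-- The squared bound for the action of the normalizer of `V` on `V`. -/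
def GoodMod (V : Subgroup G) : Prop :=
  ∀ B : Subgroup G, B ≤ Subgroup.normalizer (V : Set G) → ElemMod B V →
    actCard B V ^ 2 ≤ fixIdx B V

theorem map_inf_centralizer {f : G →* H} (hf : Function.Injective f) (A U : Subgroup G) :
    (A ⊓ Subgroup.centralizer (U : Set G)).map f =
      A.map f ⊓ Subgroup.centralizer (U.map f : Set H) := by
  ext y
  constructor
  · rintro ⟨x, hx, rfl⟩
    exact ⟨Subgroup.mem_map_of_mem f hx.1, map_mem_centralizer f hx.2⟩
  · rintro ⟨⟨x, hx, rfl⟩, hc⟩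
    refine ⟨x, ⟨hx, Subgroup.mem_centralizer_iff.2 fun z hz => hf ?_⟩, rfl⟩
    rw [map_mul, map_mul]
    exact Subgroup.mem_centralizer_iff.1 hc _ (Subgroup.mem_map_of_mem f hz)

theorem actCard_map {f : G →* H} (hf : Function.Injective f) (A U : Subgroup G) :
    actCard (A.map f) (U.map f) = actCard A U := by
  rw [actCard, actCard, ← map_inf_centralizer hf, Subgroup.relIndex_map_map_of_injective _ _ hf]

theorem fixIdx_map {f : G →* H} (hf : Function.Injective f) (A U : Subgroup G) :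
    fixIdx (A.map f) (U.map f) = fixIdx A U := by
  rw [fixIdx, fixIdx, ← map_inf_centralizer hf, Subgroup.relIndex_map_map_of_injective _ _ hf]

theorem goodMod_of_map {f : G →* H} (hf : Function.Injective f) {V : Subgroup G}
    (h : GoodMod (V.map f)) : GoodMod V := fun B hB hBe => by
  rw [← actCard_map hf, ← fixIdx_map hf]
  exact h _ ((Subgroup.map_mono hB).trans (Subgroup.le_normalizer_map f)) (hBe.map f)

theorem goodMod_map_conj {V : Subgroup G} (h : GoodMod V) (g : G) :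
    GoodMod (V.map (MulAut.conj g).toMonoidHom) := by
  refine goodMod_of_map (f := (MulAut.conj g⁻¹).toMonoidHom) (MulAut.conj g⁻¹).injective ?_
  have : (MulAut.conj g⁻¹).toMonoidHom.comp (MulAut.conj g).toMonoidHom = MonoidHom.id G := by
    ext x; simp [mul_assoc]
  rw [Subgroup.map_map, this, Subgroup.map_id]
  exact h

theorem goodMod_subgroupOf {V L : Subgroup G} (h : GoodMod V) (hV : V ≤ L) :
    GoodMod (V.subgroupOf L) :=
  goodMod_of_map L.subtype_injective (by rwa [Subgroup.map_subgroupOf_eq_of_le hV])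

end Transfer

variable {L : Type u} [Group L] [Finite L]

/-- The 2-radical lies in a Sylow 2-subgroup times the centralizer. -/
theorem rad2_le_sylow_sup (S : Sylow 2 L) (U : Subgroup L) [U.Normal] :
    rad2 U ≤ (S : Subgroup L) ⊔ Subgroup.centralizer (U : Set L) := by
  haveI : Fact (Nat.Prime 2) := ⟨Nat.prime_two⟩
  set R := rad2 U with hR
  set C := Subgroup.centralizer (U : Set L) with hC
  set X := ((S : Subgroup L) ⊓ R) ⊔ C with hX
  suffices h : R ≤ X from h.trans (sup_le_sup_right inf_le_left C)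
  obtain ⟨P, hP⟩ := (S.2.comap_subtype (K := R)).exists_le_sylow
  obtain ⟨S', hS'⟩ := (P.2.map R.subtype).exists_le_sylow
  obtain ⟨g, rfl⟩ := MulAction.exists_smul_eq L S S'
  rw [Sylow.coe_subgroup_smul, Subgroup.pointwise_smul_def] at hS'
  have hcard : Nat.card P ≤ Nat.card ↥((S : Subgroup L) ⊓ R) := by
    rw [← Subgroup.card_map_of_injective R.subtype_injective,
      ← Subgroup.card_map_of_injective (f := (MulAut.conj g⁻¹).toMonoidHom) (MulAut.conj g⁻¹).injective]
    refine Nat.le_of_dvd Nat.card_pos (Subgroup.card_dvd_of_le ?_)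
    rintro _ ⟨r, hr, rfl⟩
    obtain ⟨s, hs, hsr⟩ := hS' hr
    have hsr' : g * s * g⁻¹ = r := hsr
    obtain ⟨r', -, hr'⟩ := hr
    have hrR : r ∈ R := hr' ▸ r'.2
    refine ⟨?_, (inferInstance : R.Normal).conj_mem r hrR g⁻¹⟩
    show g⁻¹ * r * g⁻¹⁻¹ ∈ (S : Subgroup L)
    rw [← hsr']
    have : g⁻¹ * (g * s * g⁻¹) * g⁻¹⁻¹ = s := by group
    rw [this]; exact hs
  have heq : (P : Subgroup R).map R.subtype = (S : Subgroup L) ⊓ R := by
    refine (Subgroup.eq_of_le_of_card_ge ?_ ?_).symm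
    · intro x hx
      exact ⟨⟨x, hx.2⟩, hP hx.1, rfl⟩
    · rwa [Subgroup.card_map_of_injective R.subtype_injective]
  have hodd : ¬ 2 ∣ ((S : Subgroup L) ⊓ R).relIndex R := by
    rw [← heq, Subgroup.relIndex, Subgroup.subgroupOf,
      Subgroup.comap_map_eq_self_of_injective R.subtype_injective]
    exact P.not_dvd_index
  have h1 : X.relIndex R ∣ ((S : Subgroup L) ⊓ R).relIndex R :=
    Subgroup.relIndex_dvd_of_le_left R le_sup_left
  have h2 : X.relIndex R ∣ C.relIndex R := Subgroup.relIndex_dvd_of_le_left R le_sup_right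
  obtain ⟨k, hk⟩ : ∃ k, C.relIndex R = 2 ^ k := by
    have : C.relIndex R = Nat.card (R.map (QuotientGroup.mk' C)) := by
      conv_lhs => rw [← QuotientGroup.ker_mk' C]
      rw [Subgroup.relIndex_ker]
    rw [this, hR, rad2, Subgroup.map_comap_eq_self_of_surjective (QuotientGroup.mk'_surjective _)]
    exact IsPGroup.iff_card.1 (CfsgLib.Cores.isPGroup_pCore 2 _)
  rw [hk] at h2
  exact Subgroup.relIndex_eq_one.1 (Nat.eq_one_of_dvd_coprimes
    (((Nat.Prime.coprime_iff_not_dvd Nat.prime_two).2 hodd).symm.pow_right k) h1 h2)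

/-- A normal subgroup generated by conjugates of elements centralised by a Sylow 2-subgroup. -/
theorem rad2_le_centralizer_of_generated (S : Sylow 2 L) {U : Subgroup L} [U.Normal]
    (hgen : U ≤ Subgroup.closure
      {y | ∃ g z, z ∈ U ∧ z ∈ Subgroup.centralizer ((S : Subgroup L) : Set L) ∧ y = g * z * g⁻¹}) :
    rad2 U ≤ Subgroup.centralizer (U : Set L) := by
  intro n hn
  have h : Subgroup.closure
      {y | ∃ g z, z ∈ U ∧ z ∈ Subgroup.centralizer ((S : Subgroup L) : Set L) ∧ y = g * z * g⁻¹} ≤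
      Subgroup.centralizer ({n} : Set L) := by
    refine (Subgroup.closure_le _).2 ?_
    rintro _ ⟨g, z, hzU, hzS, rfl⟩
    rw [SetLike.mem_coe, Subgroup.mem_centralizer_singleton_iff]
    have hn' : g⁻¹ * n * g ∈ rad2 U := by
      simpa using (inferInstance : (rad2 U).Normal).conj_mem n hn g⁻¹
    have hz : (S : Subgroup L) ⊔ Subgroup.centralizer (U : Set L) ≤
        Subgroup.centralizer ({z} : Set L) := by
      refine sup_le (fun s hs => ?_) (fun c hc => ?_) <;> rw [Subgroup.mem_centralizer_singleton_iff]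
      · exact Subgroup.mem_centralizer_iff.1 hzS s hs
      · exact (Subgroup.mem_centralizer_iff.1 hc z hzU).symm
    have h1 := Subgroup.mem_centralizer_singleton_iff.1 (hz (rad2_le_sylow_sup S U hn'))
    calc g * z * g⁻¹ * n = g * (z * (g⁻¹ * n * g)) * g⁻¹ := by group
      _ = g * ((g⁻¹ * n * g) * z) * g⁻¹ := by rw [h1]
      _ = n * (g * z * g⁻¹) := by group
  exact Subgroup.mem_centralizer_iff.2 fun w hw =>
    Subgroup.mem_centralizer_singleton_iff.1 (h (hgen hw))

/-- The bound on `V` for its normalizer. -/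
theorem goodMod_of_generated (S : Sylow 2 L) {V : Subgroup L} (hV : IsElementaryAbelian 2 V)
    (hSV : (S : Subgroup L) ≤ Subgroup.normalizer (V : Set L))
    (hsol : Group.IsSolvable ↥(Subgroup.normalizer (V : Set L)))
    (h4 : ¬ Involves (Equiv.Perm (Fin 4)) ↥(Subgroup.normalizer (V : Set L)))
    (hgen : V ≤ Subgroup.closure {y | ∃ g ∈ Subgroup.normalizer (V : Set L), ∃ z ∈ V,
      z ∈ Subgroup.centralizer ((S : Subgroup L) : Set L) ∧ y = g * z * g⁻¹}) :
    GoodMod V := by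
  intro B hB hBe
  set K := Subgroup.normalizer (V : Set L) with hK
  have hVK : V ≤ K := Subgroup.le_normalizer
  haveI : (V.subgroupOf K).Normal := Subgroup.normal_in_normalizer
  haveI := hsol
  have hR : rad2 (V.subgroupOf K) ≤ Subgroup.centralizer (V.subgroupOf K : Set K) := by
    refine rad2_le_centralizer_of_generated (S.subtype hSV) ?_
    rintro ⟨v, hvK⟩ hv
    set T := Subgroup.closure {y : K | ∃ g z, z ∈ V.subgroupOf K ∧
      z ∈ Subgroup.centralizer ((S.subtype hSV : Subgroup K) : Set K) ∧ y = g * z * g⁻¹} with hT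
    have hle : V ≤ T.map K.subtype := by
      refine hgen.trans ((Subgroup.closure_le _).2 ?_)
      rintro _ ⟨g, hg, z, hz, hzS, rfl⟩
      refine ⟨⟨g, hg⟩ * ⟨z, hVK hz⟩ * ⟨g, hg⟩⁻¹,
        Subgroup.subset_closure ⟨⟨g, hg⟩, ⟨z, hVK hz⟩, hz, ?_, rfl⟩, rfl⟩
      refine Subgroup.mem_centralizer_iff.2 fun s hs => Subtype.ext ?_
      exact Subgroup.mem_centralizer_iff.1 hzS (s : L) hs
    obtain ⟨w, hw, hwv⟩ := hle (show v ∈ V from hv)
    have : w = ⟨v, hvK⟩ := Subtype.ext hwv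
    exact this ▸ hw
  have hVe : IsElementaryAbelian 2 (V.subgroupOf K) :=
    CfsgLib.ThompsonJ.isElementaryAbelian_subgroupOf hV
  have hVmap : (V.subgroupOf K).map K.subtype = V := Subgroup.map_subgroupOf_eq_of_le hVK
  have hBmap : (B.subgroupOf K).map K.subtype = B := Subgroup.map_subgroupOf_eq_of_le hB
  have hBe' : ElemMod (B.subgroupOf K) (V.subgroupOf K) := by
    constructor
    · intro a ha
      refine Subgroup.mem_centralizer_iff.2 fun w hw => Subtype.ext ?_
      exact Subgroup.mem_centralizer_iff.1 (hBe.1 _ ha) (w : L) hw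
    · intro a ha b hb
      refine Subgroup.mem_centralizer_iff.2 fun w hw => Subtype.ext ?_
      exact Subgroup.mem_centralizer_iff.1 (hBe.2 _ ha _ hb) (w : L) hw
  have h := sq_actCard_le_fixIdx h4 hVe hR _ hBe'
  rwa [← actCard_map K.subtype_injective, ← fixIdx_map K.subtype_injective, hVmap, hBmap] at h

/-- The Thompson subgroup of a Sylow 2-subgroup centralises a normal elementary abelian subgroup
satisfying the squared bound. -/
theorem thompson_le_centralizer [Group.IsSolvable L] (h4 : ¬ Involves (Equiv.Perm (Fin 4)) L)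
    {U : Subgroup L} [U.Normal] (hU : IsElementaryAbelian 2 U) (S : Sylow 2 L)
    (hUS : U ≤ (S : Subgroup L))
    (hfam : ∀ E : Subgroup L, E ≤ rad2 U → ElemMod E U → actCard E U ^ 2 ≤ fixIdx E U) :
    thompsonSubgroupOf 2 (S : Subgroup L) ≤ Subgroup.centralizer (U : Set L) := by
  haveI : Fact (Nat.Prime 2) := ⟨Nat.prime_two⟩
  refine CfsgLib.ThompsonJ.thompsonSubgroupOf_le_iff.2 fun A hA => ?_
  by_contra hAC
  set P : Subgroup L := (S : Subgroup L) with hP
  have hU' : IsElementaryAbelian 2 (U.subgroupOf P) :=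
    CfsgLib.ThompsonJ.isElementaryAbelian_subgroupOf hU
  have hA' : A.subgroupOf P ∈ maxElementaryAbelianSubgroups 2 P := by
    rw [CfsgLib.ThompsonJ.mem_max_subgroup_iff, Subgroup.map_subgroupOf_eq_of_le hA.le]
    exact hA
  obtain ⟨hmax, hquad, hnt⟩ := Cfsg.Agent.S0607.result (U.subgroupOf P) hU' (A.subgroupOf P) hA'
  set A2 : Subgroup ↥P := ⁅U.subgroupOf P, A.subgroupOf P⁆ ⊔ (A.subgroupOf P ⊓
    Subgroup.centralizer ((⁅U.subgroupOf P, A.subgroupOf P⁆ : Subgroup ↥P) : Set ↥P)) with hA2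
  set As := A2.map P.subtype with hAs
  have hAsmax : CfsgLib.ThompsonJ.IsMaxEA 2 P As := CfsgLib.ThompsonJ.mem_max_subgroup_iff.1 hmax
  have hmap1 : ∀ X : Subgroup ↥P, (⁅U.subgroupOf P, X⁆ : Subgroup ↥P).map P.subtype =
      ⁅U, X.map P.subtype⁆ := fun X => by
    rw [Subgroup.map_commutator, Subgroup.map_subgroupOf_eq_of_le hUS]
  have hquad' : ⁅⁅U, As⁆, As⁆ = ⊥ := by
    rw [hAs, ← hmap1, ← Subgroup.map_commutator, hquad, Subgroup.map_bot]
  have hAsC : ¬ As ≤ Subgroup.centralizer (U : Set L) := by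
    intro h
    refine hnt (fun h0 => hAC (Subgroup.commutator_eq_bot_iff_le_centralizer.1 ?_)) ?_
    · have := congrArg (Subgroup.map P.subtype) h0
      rwa [hmap1, Subgroup.map_subgroupOf_eq_of_le hA.le, Subgroup.map_bot,
        Subgroup.commutator_comm] at this
    · have h0 : ⁅U, As⁆ = ⊥ := by
        rw [Subgroup.commutator_comm]; exact Subgroup.commutator_eq_bot_iff_le_centralizer.2 h
      rw [hAs, ← hmap1] at h0
      exact (Subgroup.map_eq_bot_iff_of_injective _ P.subtype_injective).1 h0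
  refine false_of_quadratic_offender h4 hU hfam hAsmax.elem (fun w hw a ha b hb => ?_) hAsC ?_
  · have h1 : a * w * a⁻¹ * w⁻¹ ∈ ⁅U, As⁆ := by
      rw [Subgroup.commutator_comm]
      exact Subgroup.commutator_mem_commutator ha hw
    have h2 := Subgroup.commutator_eq_bot_iff_le_centralizer.1 hquad' h1
    rw [Subgroup.mem_centralizer_iff.1 h2 b hb, mul_inv_cancel_right]
  · set A1 := As ⊓ Subgroup.centralizer (U : Set L) with hA1
    have hM : IsElementaryAbelian 2 (A1 ⊔ U) :=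
      CfsgLib.ThompsonJ.isElementaryAbelian_sup
        (CfsgLib.ThompsonJ.isElementaryAbelian_mono hAsmax.elem inf_le_left) hU inf_le_right
    have hle := hAsmax.card_le _ (sup_le (inf_le_left.trans hAsmax.le) hUS) hM
    have hnorm : A1 ≤ Subgroup.normalizer (U : Set L) :=
      inf_le_right.trans (Subgroup.centralizer_le_normalizer _)
    have hprod := CfsgLib.ThompsonJ.card_sup_mul_card_inf A1 U hnorm
    have hinf : A1 ⊓ U = U ⊓ As := by
      rw [hA1, inf_assoc, inf_eq_right.2 (CfsgLib.ThompsonJ.isElementaryAbelian_le_centralizer hU),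
        inf_comm]
    rw [hinf] at hprod
    have e1 : Nat.card A1 * A1.relIndex As = Nat.card As := by
      rw [← Subgroup.relIndex_bot_left, Subgroup.relIndex_mul_relIndex _ _ _ bot_le inf_le_left,
        Subgroup.relIndex_bot_left]
    have e2 : Nat.card ↥(U ⊓ As) * (U ⊓ As).relIndex U = Nat.card U := by
      rw [← Subgroup.relIndex_bot_left, Subgroup.relIndex_mul_relIndex _ _ _ bot_le inf_le_left,
        Subgroup.relIndex_bot_left]
    have h1 : Nat.card A1 * Nat.card ↥(U ⊓ As) * (U ⊓ As).relIndex U ≤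
        Nat.card A1 * Nat.card ↥(U ⊓ As) * A1.relIndex As := by
      calc Nat.card A1 * Nat.card ↥(U ⊓ As) * (U ⊓ As).relIndex U
          = Nat.card A1 * Nat.card U := by rw [mul_assoc, e2]
        _ = Nat.card ↥(A1 ⊔ U) * Nat.card ↥(U ⊓ As) := hprod.symm
        _ ≤ Nat.card As * Nat.card ↥(U ⊓ As) := Nat.mul_le_mul hle le_rfl
        _ = _ := by rw [← e1]; ring
    refine le_trans ?_ (Nat.le_of_mul_le_mul_left h1 (Nat.mul_pos Nat.card_pos Nat.card_pos))
    exact relIndex_le_of_le_left (inf_le_inf_left U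
      (CfsgLib.ThompsonJ.isElementaryAbelian_le_centralizer hAsmax.elem)) U

/-- Frattini argument: if `J(S)` centralises `U`, then `L = N(J(S)) C(U)`. -/
theorem normalizer_thompson_sup_eq_top (S : Sylow 2 L) (U : Subgroup L) [U.Normal]
    (h : thompsonSubgroupOf 2 (S : Subgroup L) ≤ Subgroup.centralizer (U : Set L)) :
    Subgroup.normalizer ((thompsonSubgroupOf 2 (S : Subgroup L)) : Set L) ⊔
      Subgroup.centralizer (U : Set L) = ⊤ := by
  haveI : Fact (Nat.Prime 2) := ⟨Nat.prime_two⟩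
  set C := Subgroup.centralizer (U : Set L) with hC
  set J := thompsonSubgroupOf 2 (S : Subgroup L) with hJ
  obtain ⟨P, hP⟩ := (S.2.comap_subtype (K := C)).exists_le_sylow
  obtain ⟨S', hS'⟩ := (P.2.map C.subtype).exists_le_sylow
  have hJS : J ≤ (S' : Subgroup L) := fun x hx =>
    hS' ⟨⟨x, h hx⟩, hP (show (⟨x, h hx⟩ : C) ∈ (S : Subgroup L).comap C.subtype from
      CfsgLib.ThompsonJ.thompsonSubgroupOf_le 2 (S : Subgroup L) hx), rfl⟩
  have hJP : J ≤ (P : Subgroup C).map C.subtype := fun x hx =>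
    ⟨⟨x, h hx⟩, hP (show (⟨x, h hx⟩ : C) ∈ (S : Subgroup L).comap C.subtype from
      CfsgLib.ThompsonJ.thompsonSubgroupOf_le 2 (S : Subgroup L) hx), rfl⟩
  have hJS' : thompsonSubgroupOf 2 (S' : Subgroup L) = J := by
    obtain ⟨g, rfl⟩ := MulAction.exists_smul_eq L S S'
    have hc : thompsonSubgroupOf 2 ((g • S : Sylow 2 L) : Subgroup L) =
        J.map (MulAut.conj g).toMonoidHom := by
      rw [Sylow.coe_subgroup_smul, Subgroup.pointwise_smul_def]
      exact CfsgLib.ThompsonJ.thompsonSubgroupOf_conj 2 (S : Subgroup L) g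
    refine (Subgroup.eq_of_le_of_card_ge ?_ ?_).symm
    · refine CfsgLib.ThompsonJ.thompsonSubgroupOf_le_iff.2 fun A hA => ?_
      exact CfsgLib.ThompsonJ.le_thompsonSubgroupOf
        ((CfsgLib.ThompsonJ.isMaxEA_sylow_iff (g • S)).2
          ⟨(CfsgLib.ThompsonJ.le_thompsonSubgroupOf hA).trans hJS,
            ((CfsgLib.ThompsonJ.isMaxEA_sylow_iff S).1 hA).2⟩)
    · rw [hc, Subgroup.card_map_of_injective (MulAut.conj g).injective]
  have hJR : thompsonSubgroupOf 2 ((P : Subgroup C).map C.subtype) = J := by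
    rw [CfsgLib.ThompsonJ.thompsonSubgroupOf_eq_of_le hS' (hJS'.trans_le hJP), hJS']
  rw [eq_top_iff, ← Sylow.normalizer_sup_eq_top P]
  · exact sup_le_sup_right
      ((CfsgLib.ThompsonJ.normalizer_le_normalizer_thompsonSubgroupOf 2 _).trans (hJR ▸ le_rfl)) C

/-- The factorisation `N(J(S)) C(Ω₁Z(S))`. -/
theorem normalizer_thompson_sup_centralizer_omegaOne [Group.IsSolvable L]
    (h4 : ¬ Involves (Equiv.Perm (Fin 4)) L)
    (hchar : Subgroup.centralizer (pCore 2 L : Set L) ≤ pCore 2 L) (S : Sylow 2 L) :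
    Subgroup.normalizer ((thompsonSubgroupOf 2 (S : Subgroup L)) : Set L) ⊔
      Subgroup.centralizer
        (omegaOne 2 ((S : Subgroup L) ⊓ Subgroup.centralizer ((S : Subgroup L) : Set L)) : Set L) = ⊤ := by
  haveI : Fact (Nat.Prime 2) := ⟨Nat.prime_two⟩
  set Z := omegaOne 2 ((S : Subgroup L) ⊓ Subgroup.centralizer ((S : Subgroup L) : Set L)) with hZ
  set Q := pCore 2 L with hQ
  have hQS : Q ≤ (S : Subgroup L) := CfsgLib.Cores.pCore_le_sylow S
  set D := omegaOne 2 (Q ⊓ Subgroup.centralizer (Q : Set L)) with hD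
  have hDe : IsElementaryAbelian 2 D :=
    CfsgLib.ThompsonJ.isElementaryAbelian_omegaOne
      (CfsgLib.ThompsonJ.inf_centralizer_le_centralizer_self Q)
  have hZD : Z ≤ D := by
    refine CfsgLib.ThompsonJ.omegaOne_mono (le_inf (fun x hx => hchar ?_) ?_)
    · exact Subgroup.centralizer_le hQS hx.2
    · exact inf_le_right.trans (Subgroup.centralizer_le hQS)
  haveI : D.Normal := by
    refine ⟨fun x hx g => ?_⟩
    have hinj : Function.Injective (MulAut.conj g).toMonoidHom := (MulAut.conj g).injective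
    have h1 : D.map (MulAut.conj g).toMonoidHom = D := by
      rw [hD, CfsgLib.ThompsonJ.map_omegaOne hinj, CfsgLib.ThompsonJ.map_inf_centralizer hinj,
        show Q.map (MulAut.conj g).toMonoidHom = Q from CfsgLib.Cores.map_pCore_equiv (MulAut.conj g)]
    exact h1 ▸ Subgroup.mem_map_of_mem (MulAut.conj g).toMonoidHom hx
  set U := Subgroup.normalClosure (Z : Set L) with hU
  have hUD : U ≤ D := Subgroup.normalClosure_le_normal hZD
  have hUe := CfsgLib.ThompsonJ.isElementaryAbelian_mono hDe hUD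
  have hUS : U ≤ (S : Subgroup L) :=
    hUD.trans ((CfsgLib.ThompsonJ.omegaOne_le 2 _).trans (inf_le_left.trans hQS))
  have hR : rad2 U ≤ Subgroup.centralizer (U : Set L) := by
    refine rad2_le_centralizer_of_generated S ((Subgroup.closure_le _).2 fun y hy => ?_)
    obtain ⟨z, hz, hc⟩ := Group.mem_conjugatesOfSet_iff.1 hy
    obtain ⟨g, hg⟩ := isConj_iff.1 hc
    exact Subgroup.subset_closure ⟨g, z, Subgroup.subset_normalClosure hz,
      ((CfsgLib.ThompsonJ.omegaOne_le 2 _) hz).2, hg.symm⟩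
  have hfam : ∀ E : Subgroup L, E ≤ rad2 U → ElemMod E U → actCard E U ^ 2 ≤ fixIdx E U := by
    intro E hE _
    rw [actCard, inf_eq_left.2 (hE.trans hR), Subgroup.relIndex_self, one_pow]
    exact fixIdx_pos E U
  rw [eq_top_iff, ← normalizer_thompson_sup_eq_top S U (thompson_le_centralizer h4 hUe S hUS hfam)]
  exact sup_le_sup_left (Subgroup.centralizer_le Subgroup.subset_normalClosure) _

/-- A good subgroup lies in `O₂`. -/
theorem le_pCore_of_goodMod [Group.IsSolvable L] (h4 : ¬ Involves (Equiv.Perm (Fin 4)) L)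
    (hchar : Subgroup.centralizer (pCore 2 L : Set L) ≤ pCore 2 L) (S : Sylow 2 L)
    {V : Subgroup L} (hV : IsElementaryAbelian 2 V) (hVS : V ≤ (S : Subgroup L))
    (hSV : (S : Subgroup L) ≤ Subgroup.normalizer (V : Set L)) (hgood : GoodMod V) :
    V ≤ pCore 2 L := by
  haveI : Fact (Nat.Prime 2) := ⟨Nat.prime_two⟩
  by_contra hVQ
  set Q := pCore 2 L with hQdef
  have hQp : IsPGroup 2 Q := CfsgLib.Cores.isPGroup_pCore 2 L
  have hQV : Q ≤ Subgroup.normalizer (V : Set L) := (CfsgLib.Cores.pCore_le_sylow S).trans hSV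
  have hQc : ∀ g : L, ∀ t ∈ Q, g * t * g⁻¹ ∈ Q := fun g t ht =>
    (inferInstance : Q.Normal).conj_mem t ht g
  set f := QuotientGroup.mk' Q with hf
  have hf1 : ∀ g, f g = 1 ↔ g ∈ Q := fun g => QuotientGroup.eq_one_iff g
  have hVn : ∀ {g t : L}, g ∈ Subgroup.normalizer (V : Set L) → t ∈ V → g * t * g⁻¹ ∈ V :=
    fun hg ht => (Subgroup.mem_normalizer_iff.1 hg _).1 ht
  have hQ' : pCore 2 (L ⧸ Q) = ⊥ := CfsgLib.Cores.pCore_quotient_pCore 2 L
  set O := pPrimeCore 2 (L ⧸ Q) with hO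
  have hOodd : Odd (Nat.card O) := Nat.coprime_two_right.1 (CfsgLib.Cores.card_pPrimeCore_coprime 2)
  have hVe' : IsElementaryAbelian 2 (V.map f) := CfsgLib.ThompsonJ.isElementaryAbelian_map hV f
  have hnt : ¬ V.map f ≤ Subgroup.centralizer (O : Set (L ⧸ Q)) := by
    intro h
    apply hVQ
    intro a ha
    have h1 : f a ∈ O := centralizer_pPrimeCore_le hQ' (h (Subgroup.mem_map_of_mem f ha))
    rw [← hf1, ← orderOf_eq_one_iff]
    refine Nat.eq_one_of_dvd_coprimes (Nat.coprime_two_right.2 hOodd)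
      (Subgroup.orderOf_dvd_natCard O h1) (orderOf_dvd_of_pow_eq_one ?_)
    exact hVe'.2 _ (Subgroup.mem_map_of_mem f ha)
  obtain ⟨Bb, z, xb, p, hBb, hcardB, ⟨v, hv, rfl⟩, hp, hp2, -, hxB, hxo, hxinv⟩ :=
    exists_hyperplane_inverted hVe' hOodd (by rw [Subgroup.normalizer_eq_top]; exact le_top) hnt
  obtain ⟨u, rfl⟩ := QuotientGroup.mk'_surjective Q xb
  have hvv : v * v = 1 := by rw [← pow_two]; exact hV.2 v hv
  have hvi : v⁻¹ = v := inv_eq_of_mul_eq_one_right hvv
  set w := u * v * u⁻¹ * v with hw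
  have hpodd : Odd p := hp.odd_of_ne_two hp2
  have hwimg : f w = f u ^ 2 := by
    have hzi : (f v)⁻¹ = f v := by rw [← map_inv, hvi]
    calc f w = f u * f v * (f u)⁻¹ * (f v)⁻¹ := by
          rw [hw, map_mul, map_mul, map_mul, map_inv, hzi]
      _ = f u * (f v * f u * (f v)⁻¹)⁻¹ := by group
      _ = f u ^ 2 := by rw [hxinv, inv_inv, pow_two]
  have hwinv : v * w * v⁻¹ = w⁻¹ := by
    rw [hw]
    simp only [mul_inv_rev, inv_inv, hvi, mul_assoc, hvv, mul_one]
  have hwp : w ^ p ∈ Q := by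
    rw [← hf1, map_pow, hwimg, ← pow_mul, mul_comm, pow_mul, ← hxo, pow_orderOf_eq_one, one_pow]
  obtain ⟨j, hj⟩ := hQp ⟨w ^ p, hwp⟩
  set x := w ^ 2 ^ j with hx
  have hxp : x ^ p = 1 := by
    rw [hx, ← pow_mul, mul_comm, pow_mul]
    exact congrArg Subtype.val hj
  have hxinv' : v * x * v⁻¹ = x⁻¹ := by rw [hx, ← conj_pow, hwinv, inv_pow]
  have hfx : f x = f u ^ (2 * 2 ^ j) := by rw [hx, map_pow, hwimg, pow_mul]
  have hxQ : x ∉ Q := by
    intro h
    have h1 : f u ^ (2 * 2 ^ j) = 1 := by rw [← hfx, hf1]; exact h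
    have h2 : f u = 1 := pow_eq_one_of_coprime_pow h1 (by rw [← hxo, pow_orderOf_eq_one])
      (Nat.Coprime.mul_left ((Nat.coprime_primes Nat.prime_two hp).2 (Ne.symm hp2))
        (((Nat.coprime_primes Nat.prime_two hp).2 (Ne.symm hp2)).pow_left j))
    rw [h2, orderOf_one] at hxo
    exact hp.ne_one hxo.symm
  have hp5 : 5 ≤ p := by
    have := hp.two_le
    rcases (show p = 2 ∨ p = 3 ∨ p = 4 ∨ 5 ≤ p by omega) with h | h | h | h
    · exact absurd h hp2
    · subst h
      refine (false_of_inverted_three h4 hQp (a := v) (u := x) ?_ (fun hh => hxQ (hchar hh)) ?_ ?_).elim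
      · rw [hV.2 v hv]; exact one_mem _
      · rw [hxp]; exact one_mem _
      · rw [hxinv', inv_mul_cancel]; exact one_mem _
    · exact absurd (h ▸ hp) (by norm_num)
    · exact h
  obtain ⟨m, hm⟩ : Odd p := hpodd
  have hx21 : (x ^ 2) ^ (m + 1) = x := by
    rw [← pow_mul, show 2 * (m + 1) = p + 1 by omega, pow_succ, hxp, one_mul]
  set V1 := V.map (MulAut.conj x).toMonoidHom with hV1def
  have hV1 : ∀ y, y ∈ V1 ↔ x⁻¹ * y * x ∈ V := by
    intro y
    constructor
    · rintro ⟨t, ht, rfl⟩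
      simpa [mul_assoc] using ht
    · intro h
      exact ⟨_, h, show x * (x⁻¹ * y * x) * x⁻¹ = y by group⟩
  have hV1c : ∀ {s t : L}, s ∈ V1 → t ∈ V1 → s * t = t * s := fun hs ht =>
    CfsgLib.ThompsonJ.isElementaryAbelian_comm
      (CfsgLib.ThompsonJ.isElementaryAbelian_map hV _) hs ht
  have hnV1 : ∀ {g s : L}, x⁻¹ * g * x ∈ Subgroup.normalizer (V : Set L) → s ∈ V1 →
      g * s * g⁻¹ ∈ V1 := by
    intro g s hg hs
    rw [hV1] at hs ⊢
    have := hVn hg hs
    have e : x⁻¹ * (g * s * g⁻¹) * x = x⁻¹ * g * x * (x⁻¹ * s * x) * (x⁻¹ * g * x)⁻¹ := by group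
    rwa [e]
  set v1 := x * v * x⁻¹ with hv1def
  have hv1 : v1 ∈ V1 := Subgroup.mem_map_of_mem _ hv
  have hv1v : v1 * v = x ^ 2 := by
    calc v1 * v = x * v * x⁻¹ * v⁻¹ := by rw [hv1def, hvi]
      _ = x * (v * x * v⁻¹)⁻¹ := by group
      _ = x ^ 2 := by rw [hxinv', inv_inv, pow_two]
  have hv1n : ∀ {t : L}, t ∈ Q → t * v1 * t⁻¹ * v1⁻¹ ∈ V1 ⊓ Q := fun {t} ht => by
    refine ⟨V1.mul_mem (hnV1 (hQV (by simpa using hQc x⁻¹ t ht)) hv1) (V1.inv_mem hv1), ?_⟩
    have := Q.mul_mem ht (hQc v1 t⁻¹ (Q.inv_mem ht))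
    simpa [mul_assoc] using this
  set E := V ⊓ Q with hE
  set E1 := V1 ⊓ Q with hE1
  have hE1map : E.map (MulAut.conj x).toMonoidHom = E1 := by
    refine (Subgroup.map_inf _ _ _ (MulAut.conj x).injective).trans ?_
    have hQx : Q.map (MulAut.conj x).toMonoidHom = Q := Subgroup.mem_normalizer_iff_map_conj_eq.mp
      (show x ∈ Subgroup.normalizer (Q : Set L) by rw [Subgroup.normalizer_eq_top]; trivial)
    rw [hQx]
  set I := E ⊓ E1 with hI
  have hfix : ∀ {t : L}, t ∈ V → t ∈ V1 → x * t * x⁻¹ = t := by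
    intro t ht ht1
    have c1 : Commute t v := CfsgLib.ThompsonJ.isElementaryAbelian_comm hV ht hv
    have c2 : Commute t v1 := hV1c ht1 hv1
    have c3 : Commute t (x ^ 2) := hv1v ▸ c2.mul_right c1
    rw [← (hx21 ▸ c3.pow_right (m + 1) : Commute t x).eq, mul_inv_cancel_right]
  have hIV : ∀ {t : L}, t ∈ I → x * t * x⁻¹ = t := fun ht => hfix ht.1.1 ht.2.1
  -- `E` differs from `I`
  have hEI : ¬ E ≤ I := by
    intro hle
    have hEE1 : E = E1 := Subgroup.eq_of_le_of_card_ge (hle.trans inf_le_right) (le_of_eq (by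
      rw [← hE1map, Subgroup.card_map_of_injective (MulAut.conj x).injective]))
    apply hxQ
    refine hchar (Subgroup.mem_centralizer_iff.2 fun q hq => ?_)
    have hEx : ∀ {t : L}, t ∈ E → x * t * x⁻¹ = t := fun ht => hIV (hle ht)
    have d1 : v * q * v⁻¹ * q⁻¹ ∈ E :=
      ⟨by simpa [mul_assoc] using V.mul_mem hv (hVn (hQV hq) (V.inv_mem hv)),
        Q.mul_mem (hQc v q hq) (Q.inv_mem hq)⟩
    have d2 : v1 * q * v1⁻¹ * q⁻¹ ∈ E := by
      rw [hEE1]
      have := (V1 ⊓ Q).inv_mem (hv1n hq)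
      have h' : v1 * q * v1⁻¹ * q⁻¹ = (q * v1 * q⁻¹ * v1⁻¹)⁻¹ := by group
      rw [h']; exact this
    set e := v * q * v⁻¹ * q⁻¹ with he
    set e' := v1 * q * v1⁻¹ * q⁻¹ with he'
    have hev1 : v1 * e * v1⁻¹ = e := by
      have he1 : e ∈ V1 := by
        have := d1; rw [hEE1] at this; exact this.1
      rw [← hV1c he1 hv1, mul_inv_cancel_right]
    have h2 : x ^ 2 * q * (x ^ 2)⁻¹ = (e * e') * q := by
      calc x ^ 2 * q * (x ^ 2)⁻¹ = v1 * (v * q * v⁻¹) * v1⁻¹ := by rw [← hv1v]; group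
        _ = (v1 * e * v1⁻¹) * (v1 * q * v1⁻¹) := by rw [he]; group
        _ = e * (e' * q) := by rw [hev1, he']; group
        _ = (e * e') * q := (mul_assoc _ _ _).symm
    have hee : e * e' ∈ E := E.mul_mem d1 d2
    have h3 : x ^ 2 * (e * e') * (x ^ 2)⁻¹ = e * e' := by
      calc x ^ 2 * (e * e') * (x ^ 2)⁻¹ = x * (x * (e * e') * x⁻¹) * x⁻¹ := by rw [pow_two]; group
        _ = e * e' := by rw [hEx hee, hEx hee]
    have h4' := pow_conj_eq (W := E) (fun t ht => hV.2 t ht.1) hee h3 h2 p ⟨m, hm⟩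
      (by rw [← pow_mul, mul_comm, pow_mul, hxp]; simp)
    have c : Commute (x ^ 2) q := mul_inv_eq_iff_eq_mul.1 h4'
    exact (hx21 ▸ c.pow_left (m + 1) : Commute x q).symm.eq
  set n := I.relIndex E with hn
  have hnE1 : I.relIndex E1 = n := by
    have hIx : I.map (MulAut.conj x).toMonoidHom = I := by
      ext t
      constructor
      · rintro ⟨s, hs, rfl⟩
        show x * s * x⁻¹ ∈ I
        rw [hIV hs]; exact hs
      · intro ht; exact ⟨t, ht, hIV ht⟩
    rw [← hE1map]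
    conv_lhs => arg 1; rw [← hIx]
    exact Subgroup.relIndex_map_map_of_injective _ _ (MulAut.conj x).injective
  -- the bound from `E1` acting on `V`
  have hsq : n ^ 2 ≤ fixIdx E1 V := by
    have hEn : E1 ≤ Subgroup.normalizer (V : Set L) := inf_le_right.trans hQV
    have hEe : ElemMod E1 V := elemMod_of_isElementaryAbelian
      (CfsgLib.ThompsonJ.isElementaryAbelian_mono
        (CfsgLib.ThompsonJ.isElementaryAbelian_map hV _) inf_le_left) V
    have hk : E1 ⊓ Subgroup.centralizer (V : Set L) = I := by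
      refine le_antisymm ?_ (le_inf inf_le_right ?_)
      · intro t ht
        refine ⟨?_, ht.1⟩
        have c1 : Commute t v := (Subgroup.mem_centralizer_iff.1 ht.2 v hv).symm
        have c2 : Commute t v1 := hV1c ht.1.1 hv1
        have c3 : Commute t (x ^ 2) := hv1v ▸ c2.mul_right c1
        have c4 : Commute t x := hx21 ▸ c3.pow_right (m + 1)
        obtain ⟨s, hs, hst⟩ : t ∈ E.map (MulAut.conj x).toMonoidHom := hE1map.symm ▸ ht.1
        have hst' : x * s * x⁻¹ = t := hst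
        have : s = t := by
          calc s = x⁻¹ * (x * s * x⁻¹) * x := by group
            _ = x⁻¹ * (t * x) := by rw [hst', mul_assoc]
            _ = t := by rw [c4.eq, inv_mul_cancel_left]
        exact this ▸ hs
      · exact inf_le_left.trans (inf_le_left.trans
          (CfsgLib.ThompsonJ.isElementaryAbelian_le_centralizer hV))
    have := hgood E1 hEn hEe
    rwa [actCard, hk, hnE1] at this
  -- `V` is almost `E (V ∩ C(E1))`
  set X := V ⊓ Subgroup.centralizer (E1 : Set L) with hX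
  set Bv := V ⊓ Bb.comap f with hBv
  have hBvidx : Bv.relIndex V = 2 := by
    rw [hBv, Subgroup.inf_relIndex_left, Subgroup.relIndex_comap]
    have h2 : Nat.card Bb * Bb.relIndex (V.map f) = Nat.card (V.map f) := by
      rw [← Subgroup.relIndex_bot_left, Subgroup.relIndex_mul_relIndex _ _ _ bot_le hBb,
        Subgroup.relIndex_bot_left]
    rw [← hcardB, mul_comm 2] at h2
    exact Nat.eq_of_mul_eq_mul_left Nat.card_pos h2
  have hQE : Q ≤ Subgroup.normalizer (E : Set L) := fun g hg => by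
    rw [Subgroup.mem_normalizer_iff]
    exact fun y => and_congr (Subgroup.mem_normalizer_iff.1 (hQV hg) y)
      ⟨fun h => hQc g y h, fun h => by simpa [mul_assoc] using hQc g⁻¹ _ h⟩
  have hBvX : Bv ≤ E ⊔ X := by
    intro b hb
    have hxb : f x * f b = f b * f x := by
      have h1 : Commute (f b) (f u) := Subgroup.mem_centralizer_iff.1 hxB (f b) hb.2
      rw [hfx]
      exact (h1.pow_right _).symm.eq
    set qb := b⁻¹ * (x⁻¹ * b * x) with hqb
    have hqbQ : qb ∈ Q := by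
      rw [← hf1, hqb, map_mul, map_mul, map_mul, map_inv, map_inv, mul_assoc ((f x)⁻¹),
        ← hxb, inv_mul_cancel_left, inv_mul_cancel]
    have hbn : x⁻¹ * b * x ∈ Subgroup.normalizer (V : Set L) := by
      rw [show x⁻¹ * b * x = b * qb by rw [hqb]; group]
      exact mul_mem (Subgroup.le_normalizer hb.1) (hQV hqbQ)
    set c := v1 * b * v1⁻¹ * b⁻¹ with hc
    have hcE1 : c ∈ E1 := by
      refine ⟨?_, ?_⟩
      · have := V1.mul_mem hv1 (hnV1 hbn (V1.inv_mem hv1))
        simpa [hc, mul_assoc] using this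
      · show c ∈ Q
        rw [← hf1]
        have h1 : Commute (f b) (f v) := by
          rw [Commute, SemiconjBy, ← map_mul, ← map_mul,
            CfsgLib.ThompsonJ.isElementaryAbelian_comm hV hb.1 hv]
        have h2 : Commute (f b) (f x) := hxb.symm
        have h3 : Commute (f b) (f v1) := by
          rw [hv1def, map_mul, map_mul, map_inv]
          exact (h2.mul_right h1).mul_right h2.inv_right
        rw [hc, map_mul, map_mul, map_mul, map_inv, map_inv, ← h3.eq, mul_inv_cancel_right,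
          mul_inv_cancel]
    set D := E ⊔ E1 with hD
    have hstab : ∀ {g : L}, (∀ t ∈ E, g * t * g⁻¹ ∈ D) → (∀ t ∈ E1, g * t * g⁻¹ ∈ D) →
        ∀ t ∈ D, g * t * g⁻¹ ∈ D := by
      intro g h1 h2 t ht
      have hle : D.map (MulAut.conj g).toMonoidHom ≤ D := by
        rw [hD, Subgroup.map_sup]
        exact sup_le (Subgroup.map_le_iff_le_comap.2 h1) (Subgroup.map_le_iff_le_comap.2 h2)
      exact hle (Subgroup.mem_map_of_mem _ ht)
    have hvD : ∀ t ∈ D, v * t * v⁻¹ ∈ D := hstab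
      (fun t ht => by
        rw [← CfsgLib.ThompsonJ.isElementaryAbelian_comm hV ht.1 hv, mul_inv_cancel_right]
        exact Subgroup.mem_sup_left ht)
      (fun t ht => by
        have h0 : v * t * v⁻¹ * t⁻¹ ∈ E :=
          ⟨by simpa [mul_assoc] using V.mul_mem hv (hVn (hQV ht.2) (V.inv_mem hv)),
            Q.mul_mem (hQc v t ht.2) (Q.inv_mem ht.2)⟩
        rw [show v * t * v⁻¹ = (v * t * v⁻¹ * t⁻¹) * t by group]
        exact Subgroup.mul_mem_sup h0 ht)
    have hv1D : ∀ t ∈ D, v1 * t * v1⁻¹ ∈ D := hstab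
      (fun t ht => by
        have h0 := E1.inv_mem (hv1n ht.2)
        rw [show v1 * t * v1⁻¹ = (t * v1 * t⁻¹ * v1⁻¹)⁻¹ * t by group]
        exact Subgroup.mul_mem _ (Subgroup.mem_sup_right h0) (Subgroup.mem_sup_left ht))
      (fun t ht => by
        rw [← hV1c ht.1 hv1, mul_inv_cancel_right]
        exact Subgroup.mem_sup_right ht)
    have hx2D : ∀ t ∈ D, x ^ 2 * t * (x ^ 2)⁻¹ ∈ D := fun t ht => by
      rw [← hv1v, show v1 * v * t * (v1 * v)⁻¹ = v1 * (v * t * v⁻¹) * v1⁻¹ by group]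
      exact hv1D _ (hvD t ht)
    have hx2b : x ^ 2 * b * (x ^ 2)⁻¹ * b⁻¹ ∈ D := by
      rw [← hv1v, show v1 * v * b * (v1 * v)⁻¹ * b⁻¹ = v1 * (v * b * v⁻¹) * v1⁻¹ * b⁻¹ by group,
        CfsgLib.ThompsonJ.isElementaryAbelian_comm hV hv hb.1, mul_inv_cancel_right]
      exact Subgroup.mem_sup_right hcE1
    have hk : ∀ k : ℕ, (x ^ 2) ^ k * b * ((x ^ 2) ^ k)⁻¹ * b⁻¹ ∈ D := by
      intro k
      induction k with
      | zero => simp
      | succ k ih =>
        have := D.mul_mem (hx2D _ ih) hx2b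
        have e : (x ^ 2) ^ (k + 1) * b * ((x ^ 2) ^ (k + 1))⁻¹ * b⁻¹ =
            x ^ 2 * ((x ^ 2) ^ k * b * ((x ^ 2) ^ k)⁻¹ * b⁻¹) * (x ^ 2)⁻¹ *
              (x ^ 2 * b * (x ^ 2)⁻¹ * b⁻¹) := by
          rw [pow_succ' (x ^ 2) k]; group
        rwa [e]
    have hd := hk (m + 1)
    rw [hx21] at hd
    have hnE : E1 ≤ Subgroup.normalizer (E : Set L) := inf_le_right.trans hQE
    rw [← SetLike.mem_coe, hD, Subgroup.coe_mul_of_right_le_normalizer_left E E1 hnE] at hd
    obtain ⟨e, he, f1, hf1', hef⟩ := hd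
    have hxbV1 : x * b * x⁻¹ ∈ V1 := Subgroup.mem_map_of_mem _ hb.1
    have hf1'' : b⁻¹ * f1 * b ∈ E1 := by
      refine ⟨?_, by simpa using hQc b⁻¹ f1 hf1'.2⟩
      have := hnV1 (g := b⁻¹) (by
        have := inv_mem hbn
        rwa [show (x⁻¹ * b * x)⁻¹ = x⁻¹ * b⁻¹ * x by group] at this) hf1'.1
      simpa using this
    have hef' : e * f1 = x * b * x⁻¹ * b⁻¹ := hef
    have heb : e * b = (x * b * x⁻¹) * (b⁻¹ * f1 * b)⁻¹ := by
      calc e * b = (e * f1) * b * (b⁻¹ * f1 * b)⁻¹ := by group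
        _ = _ := by rw [hef']; group
    have hX' : e * b ∈ X := by
      refine ⟨V.mul_mem he.1 hb.1, Subgroup.mem_centralizer_iff.2 fun t ht => ?_⟩
      rw [heb]
      exact hV1c ht.1 (V1.mul_mem hxbV1 (V1.inv_mem hf1''.1))
    rw [show b = e⁻¹ * (e * b) by group]
    exact Subgroup.mul_mem_sup (E.inv_mem he) hX'
  have hIX : I ≤ X := le_inf (inf_le_left.trans inf_le_left)
    ((inf_le_right.trans inf_le_left).trans ((CfsgLib.ThompsonJ.isElementaryAbelian_le_centralizer
      (CfsgLib.ThompsonJ.isElementaryAbelian_map hV _)).trans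
        (Subgroup.centralizer_le (SetLike.coe_subset_coe.2 inf_le_left))))
  have hup : fixIdx E1 V ≤ 2 * n := by
    have h1 : X.relIndex (X ⊔ E) * (X ⊔ E).relIndex V = fixIdx E1 V :=
      Subgroup.relIndex_mul_relIndex _ _ _ le_sup_left (sup_le inf_le_left inf_le_left)
    rw [← h1, mul_comm 2 n]
    refine Nat.mul_le_mul ?_ ?_
    · rw [relIndex_sup_eq ((inf_le_left : E ≤ V).trans (le_normalizer_of_elem hV inf_le_left)),
        ← Subgroup.inf_relIndex_left E X]
      exact relIndex_le_of_le_left (le_inf inf_le_left hIX) E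
    · rw [← hBvidx]
      exact relIndex_le_of_le_left (hBvX.trans (sup_comm E X).le) V
  have hn2 : n ≤ 2 := by
    have hnpos : 0 < n := relIndex_pos _ _
    have := hsq.trans hup
    rw [pow_two] at this
    exact Nat.le_of_mul_le_mul_right this hnpos
  -- the case `n = 2`
  obtain ⟨e0, he0, he0I⟩ := SetLike.not_le_iff_exists.1 hEI
  set D := E ⊔ E1 with hD
  have hxD : ∀ i : ℕ, ∀ t ∈ D, x ^ i * t * (x ^ i)⁻¹ ∈ D := by
    have h1 : ∀ t ∈ D, x ^ 2 * t * (x ^ 2)⁻¹ ∈ D := by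
      have hle : D.map (MulAut.conj (x ^ 2)).toMonoidHom ≤ D := by
        rw [hD, Subgroup.map_sup]
        refine sup_le ?_ ?_
        · rintro _ ⟨t, ht, rfl⟩
          show x ^ 2 * t * (x ^ 2)⁻¹ ∈ _
          have h0 := E1.inv_mem (hv1n ht.2)
          rw [← hv1v, show v1 * v * t * (v1 * v)⁻¹ = v1 * (v * t * v⁻¹) * v1⁻¹ by group,
            ← CfsgLib.ThompsonJ.isElementaryAbelian_comm hV ht.1 hv, mul_inv_cancel_right,
            show v1 * t * v1⁻¹ = (t * v1 * t⁻¹ * v1⁻¹)⁻¹ * t by group]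
          exact Subgroup.mul_mem _ (Subgroup.mem_sup_right h0) (Subgroup.mem_sup_left ht)
        · rintro _ ⟨t, ht, rfl⟩
          show x ^ 2 * t * (x ^ 2)⁻¹ ∈ _
          have h0 : v * t * v⁻¹ * t⁻¹ ∈ E :=
            ⟨by simpa [mul_assoc] using V.mul_mem hv (hVn (hQV ht.2) (V.inv_mem hv)),
              Q.mul_mem (hQc v t ht.2) (Q.inv_mem ht.2)⟩
          rw [← hv1v, show v1 * v * t * (v1 * v)⁻¹ =
            (v1 * (v * t * v⁻¹ * t⁻¹) * v1⁻¹) * (v1 * t * v1⁻¹) by group,
            ← hV1c ht.1 hv1, mul_inv_cancel_right]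
          refine Subgroup.mul_mem _ ?_ (Subgroup.mem_sup_right ht)
          have h5 := E1.inv_mem (hv1n h0.2)
          rw [show v1 * (v * t * v⁻¹ * t⁻¹) * v1⁻¹ =
            ((v * t * v⁻¹ * t⁻¹) * v1 * (v * t * v⁻¹ * t⁻¹)⁻¹ * v1⁻¹)⁻¹ * (v * t * v⁻¹ * t⁻¹) by group]
          exact Subgroup.mul_mem _ (Subgroup.mem_sup_right h5) (Subgroup.mem_sup_left h0)
      exact fun t ht => hle (Subgroup.mem_map_of_mem _ ht)
    have h2 : ∀ k : ℕ, ∀ t ∈ D, (x ^ 2) ^ k * t * ((x ^ 2) ^ k)⁻¹ ∈ D := by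
      intro k
      induction k with
      | zero => simp
      | succ k ih =>
        intro t ht
        rw [pow_succ' (x ^ 2) k, show x ^ 2 * (x ^ 2) ^ k * t * (x ^ 2 * (x ^ 2) ^ k)⁻¹ =
          x ^ 2 * ((x ^ 2) ^ k * t * ((x ^ 2) ^ k)⁻¹) * (x ^ 2)⁻¹ by group]
        exact h1 _ (ih t ht)
    intro i t ht
    have := h2 ((m + 1) * i) t ht
    rwa [pow_mul, hx21] at this
  have hD4 : I.relIndex D ≤ 4 := by
    rw [← Subgroup.relIndex_mul_relIndex I E D inf_le_left le_sup_left,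
      hD, relIndex_sup_eq (inf_le_right.trans hQE : E1 ≤ Subgroup.normalizer (E : Set L)),
      ← Subgroup.inf_relIndex_left E1 E, inf_comm E1 E, ← hI, hnE1]
    exact Nat.mul_le_mul hn2 hn2
  haveI : Fintype (D ⧸ I.subgroupOf D) := Fintype.ofFinite _
  have he0D : e0 ∈ D := Subgroup.mem_sup_left he0
  obtain ⟨i, -, i', -, hne, hq⟩ := Finset.exists_ne_map_eq_of_card_lt_of_maps_to
    (s := (Finset.univ : Finset (Fin 5))) (t := (Finset.univ : Finset (D ⧸ I.subgroupOf D)))
    (f := fun i : Fin 5 => (QuotientGroup.mk ⟨x ^ (i : ℕ) * e0 * (x ^ (i : ℕ))⁻¹, hxD i e0 he0D⟩ :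
      D ⧸ I.subgroupOf D))
    (by
      rw [Finset.card_univ, Finset.card_univ, Fintype.card_fin, ← Nat.card_eq_fintype_card]
      exact Nat.lt_of_le_of_lt hD4 (by norm_num))
    (fun i _ => Finset.mem_univ _)
  wlog hlt : (i : ℕ) < i' generalizing i i'
  · exact this i' i hne.symm hq.symm
      (lt_of_le_of_ne (not_lt.1 hlt) fun h => hne (Fin.ext h.symm))
  obtain ⟨k, hk⟩ : ∃ k, (i' : ℕ) = i + (k + 1) := ⟨i' - i - 1, by omega⟩
  have hk5 : k + 1 < 5 := by have := i'.2; omega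
  have hIpow : ∀ l : ℕ, ∀ t ∈ I, x ^ l * t * (x ^ l)⁻¹ = t := by
    intro l t ht
    induction l with
    | zero => simp
    | succ l ih =>
      rw [pow_succ' x l, show x * x ^ l * t * (x * x ^ l)⁻¹ = x * (x ^ l * t * (x ^ l)⁻¹) * x⁻¹ by group,
        ih, hIV ht]
  set d := x ^ (k + 1) with hd
  have hde : e0⁻¹ * (d * e0 * d⁻¹) ∈ I := by
    have h0 : (⟨x ^ (i : ℕ) * e0 * (x ^ (i : ℕ))⁻¹, hxD i e0 he0D⟩ : D)⁻¹ *
        ⟨x ^ (i' : ℕ) * e0 * (x ^ (i' : ℕ))⁻¹, hxD i' e0 he0D⟩ ∈ I.subgroupOf D :=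
      QuotientGroup.eq.1 hq
    have h1 : (x ^ (i : ℕ) * e0 * (x ^ (i : ℕ))⁻¹)⁻¹ * (x ^ (i' : ℕ) * e0 * (x ^ (i' : ℕ))⁻¹) ∈ I := h0
    set t := (x ^ (i : ℕ) * e0 * (x ^ (i : ℕ))⁻¹)⁻¹ * (x ^ (i' : ℕ) * e0 * (x ^ (i' : ℕ))⁻¹) with ht
    have h2 : x ^ (i : ℕ) * (e0⁻¹ * (d * e0 * d⁻¹)) * (x ^ (i : ℕ))⁻¹ = t := by
      rw [ht, hk, hd, pow_add]; group
    have h3 : x ^ (i : ℕ) * t * (x ^ (i : ℕ))⁻¹ = t := hIpow _ t h1
    have : e0⁻¹ * (d * e0 * d⁻¹) = t := (MulAut.conj (x ^ (i : ℕ))).injective (h2.trans h3.symm)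
    rw [this]; exact h1
  let H : Subgroup L :=
    { carrier := {g | g ∈ Subgroup.centralizer (I : Set L) ∧ e0⁻¹ * (g * e0 * g⁻¹) ∈ I}
      one_mem' := ⟨one_mem _, by simp⟩
      mul_mem' := by
        rintro g g' ⟨hg, hg'⟩ ⟨hh, hh'⟩
        refine ⟨mul_mem hg hh, ?_⟩
        have e1 := conj_eq_of_mem_centralizer hg hh'
        have : e0⁻¹ * (g * g' * e0 * (g * g')⁻¹) =
            (e0⁻¹ * (g * e0 * g⁻¹)) * (g * (e0⁻¹ * (g' * e0 * g'⁻¹)) * g⁻¹) := by group
        rw [this, e1]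
        exact mul_mem hg' hh'
      inv_mem' := by
        rintro g ⟨hg, hg'⟩
        refine ⟨inv_mem hg, ?_⟩
        have e1 := conj_eq_of_mem_centralizer (inv_mem hg) hg'
        have : e0⁻¹ * (g⁻¹ * e0 * g⁻¹⁻¹) = (g⁻¹ * (e0⁻¹ * (g * e0 * g⁻¹)) * g⁻¹⁻¹)⁻¹ := by group
        rw [this, e1]
        exact inv_mem hg' }
  have hdH : d ∈ H := ⟨mem_centralizer_of_conj_eq fun t ht => hIpow _ t ht, hde⟩
  have hxH : x ∈ H := mem_of_pow_mem_coprime (m := k + 1) (n := p) hdH (by rw [hxp]; exact one_mem H)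
    (hp.coprime_iff_not_dvd.2 fun h => by have := Nat.le_of_dvd (by omega) h; omega).symm
  apply he0I
  have h1 : x * e0 * x⁻¹ ∈ E := by
    rw [show x * e0 * x⁻¹ = e0 * (e0⁻¹ * (x * e0 * x⁻¹)) by group]
    exact E.mul_mem he0 hxH.2.1
  have h2 : x * e0 * x⁻¹ ∈ E1 := hE1map ▸ Subgroup.mem_map_of_mem _ he0
  have h3 : x * (x * e0 * x⁻¹) * x⁻¹ = x * e0 * x⁻¹ := hIV ⟨h1, h2⟩
  have h4' : x * e0 * x⁻¹ = e0 := (MulAut.conj x).injective h3
  exact ⟨he0, h4' ▸ h2⟩

/-- The main theorem: a good subgroup normalised by `N(J(S))` is normal. -/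
theorem normal_of_goodMod [Group.IsSolvable L] (h4 : ¬ Involves (Equiv.Perm (Fin 4)) L)
    (hchar : Subgroup.centralizer (pCore 2 L : Set L) ≤ pCore 2 L) (S : Sylow 2 L)
    {V : Subgroup L} (hV : IsElementaryAbelian 2 V) (hVS : V ≤ (S : Subgroup L))
    (hSV : (S : Subgroup L) ≤ Subgroup.normalizer (V : Set L)) (hgood : GoodMod V)
    (hJV : Subgroup.normalizer ((thompsonSubgroupOf 2 (S : Subgroup L)) : Set L) ≤
      Subgroup.normalizer (V : Set L)) :
    V.Normal := by
  classical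
  haveI : Fact (Nat.Prime 2) := ⟨Nat.prime_two⟩
  have hVQ := le_pCore_of_goodMod h4 hchar S hV hVS hSV hgood
  set Q := pCore 2 L with hQdef
  set U := Subgroup.normalClosure (V : Set L) with hUdef
  have hQc : ∀ g : L, V.map (MulAut.conj g).toMonoidHom ≤ Q := fun g => by
    rintro _ ⟨t, ht, rfl⟩
    exact (inferInstance : Q.Normal).conj_mem t (hVQ ht) g
  have hQn : ∀ g : L, Q ≤ Subgroup.normalizer ((V.map (MulAut.conj g).toMonoidHom : Subgroup L) : Set L) := by
    intro g q hq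
    refine Subgroup.le_normalizer_map _ ⟨g⁻¹ * q * g, ?_, show g * (g⁻¹ * q * g) * g⁻¹ = q by group⟩
    exact ((CfsgLib.Cores.pCore_le_sylow S).trans hSV)
      (by simpa using (inferInstance : Q.Normal).conj_mem q hq g⁻¹)
  have hUQ : U ≤ Q := Subgroup.normalClosure_le_normal hVQ
  haveI : Fintype L := Fintype.ofFinite L
  set s : Finset (Subgroup L) :=
    Finset.univ.image fun g : L => V.map (MulAut.conj g).toMonoidHom with hs
  have hUs : U = s.sup id := by
    refine le_antisymm ((Subgroup.closure_le _).2 fun y hy => ?_) (Finset.sup_le fun W hW => ?_)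
    · obtain ⟨t, ht, hc⟩ := Group.mem_conjugatesOfSet_iff.1 hy
      obtain ⟨g, hg⟩ := isConj_iff.1 hc
      exact Finset.le_sup (f := id) (b := V.map (MulAut.conj g).toMonoidHom)
        (Finset.mem_image.2 ⟨g, Finset.mem_univ g, rfl⟩) ⟨t, ht, hg⟩
    · obtain ⟨g, -, rfl⟩ := Finset.mem_image.1 hW
      rintro _ ⟨t, ht, rfl⟩
      exact Subgroup.normalClosure_normal.conj_mem t (Subgroup.subset_normalClosure ht) g
  have hpair : ∀ W ∈ s, ∀ W' ∈ s, W ≤ Subgroup.centralizer (W' : Set L) := by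
    intro W hW W' hW'
    obtain ⟨g, -, rfl⟩ := Finset.mem_image.1 hW
    obtain ⟨g', -, rfl⟩ := Finset.mem_image.1 hW'
    set X := V.map (MulAut.conj g).toMonoidHom
    set Y := V.map (MulAut.conj g').toMonoidHom
    have hXe : IsElementaryAbelian 2 X := CfsgLib.ThompsonJ.isElementaryAbelian_map hV _
    have hYe : IsElementaryAbelian 2 Y := CfsgLib.ThompsonJ.isElementaryAbelian_map hV _
    have b1 : actCard X Y ^ 2 ≤ actCard Y X :=
      goodMod_map_conj hgood g' X ((hQc g).trans (hQn g')) (elemMod_of_isElementaryAbelian hXe Y)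
    have b2 : actCard Y X ^ 2 ≤ actCard X Y :=
      goodMod_map_conj hgood g Y ((hQc g').trans (hQn g)) (elemMod_of_isElementaryAbelian hYe X)
    have hpos : 0 < actCard X Y := relIndex_pos _ _
    have h1 : actCard X Y = 1 := by
      have h0 : (actCard X Y ^ 2) ^ 2 ≤ actCard X Y := (Nat.pow_le_pow_left b1 2).trans b2
      by_contra hne
      have h2 : 2 ≤ actCard X Y := by omega
      have h3 : actCard X Y < (actCard X Y ^ 2) ^ 2 := by
        rw [← pow_mul]
        calc actCard X Y = actCard X Y ^ 1 := (pow_one _).symm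
          _ < actCard X Y ^ (2 * 2) := Nat.pow_lt_pow_right (by omega) (by norm_num)
      omega
    exact fun t ht => ((Subgroup.relIndex_eq_one.1 h1) ht).2
  have hUe : IsElementaryAbelian 2 U := by
    rw [hUs, Finset.sup_id_eq_sSup, sSup_eq_iSup']
    exact CfsgLib.ThompsonJ.isElementaryAbelian_iSup
      (fun W => by
        obtain ⟨g, -, hg⟩ := Finset.mem_image.1 (Finset.mem_coe.1 W.2)
        exact hg ▸ CfsgLib.ThompsonJ.isElementaryAbelian_map hV _)
      (fun W W' => hpair W W.2 W' W'.2)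
  have hUn : U.Normal := Subgroup.normalClosure_normal
  have hCV : Subgroup.centralizer (U : Set L) ≤ Subgroup.normalizer (V : Set L) :=
    (Subgroup.centralizer_le Subgroup.subset_normalClosure).trans (Subgroup.centralizer_le_normalizer _)
  have hRn : rad2 U ≤ Subgroup.normalizer (V : Set L) :=
    (rad2_le_sylow_sup S U).trans (sup_le hSV hCV)
  have hfam : ∀ E : Subgroup L, E ≤ rad2 U → ElemMod E U → actCard E U ^ 2 ≤ fixIdx E U := by
    intro E hE hEe
    have hh : ∀ W ∈ s, ∀ B ≤ E, actCard B W ^ 2 ≤ fixIdx B W := by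
      intro W hW B hB
      have hWU : W ≤ U := hUs ▸ Finset.le_sup (f := id) hW
      obtain ⟨g, -, rfl⟩ := Finset.mem_image.1 hW
      refine goodMod_map_conj hgood g B ?_ ((hEe.mono hB).of_le hWU)
      intro b hb
      refine Subgroup.le_normalizer_map _ ⟨g⁻¹ * b * g, ?_, show g * (g⁻¹ * b * g) * g⁻¹ = b by group⟩
      exact hRn (by simpa using (inferInstance : (rad2 U).Normal).conj_mem b (hE (hB hb)) g⁻¹)
    have hUe' : IsElementaryAbelian 2 (s.sup id) := hUs ▸ hUe
    have := sq_actCard_le_of_family s hUe' hh E le_rfl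
    rwa [← hUs] at this
  have hJ := thompson_le_centralizer h4 hUe S (hUQ.trans (CfsgLib.Cores.pCore_le_sylow S)) hfam
  rw [← Subgroup.normalizer_eq_top_iff, eq_top_iff, ← normalizer_thompson_sup_eq_top S U hJ]
  exact sup_le hJV hCV

end CfsgLib.SFourFree
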