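import Cfsg.Agent.Lib.SFourFree.Basic

/-!
No quadratic offender on a normal elementary abelian 2-subgroup of an `S₄`-free solvable group whose
2-radical satisfies the squared bound.
-/

set_option autoImplicit false
set_option linter.style.haveILetI false

namespace CfsgLib.SFourFree

open Cfsg

universe u

variable {L : Type u} [Group L]

/-- The elements acting trivially on `U` modulo the normal subgroup `W`. -/
def centMod (U W : Subgroup L) [W.Normal] : Subgroup L :=
  (Subgroup.centralizer (U.map (QuotientGroup.mk' W) : Set (L ⧸ W))).comap (QuotientGroup.mk' W)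

instance centMod_normal (U W : Subgroup L) [U.Normal] [W.Normal] : (centMod U W).Normal := by
  haveI : (U.map (QuotientGroup.mk' W)).Normal :=
    Subgroup.Normal.map inferInstance _ (QuotientGroup.mk'_surjective W)
  exact Subgroup.Normal.comap inferInstance _

theorem mem_centMod_iff {U W : Subgroup L} [W.Normal] {g : L} :
    g ∈ centMod U W ↔ ∀ u ∈ U, g * u * g⁻¹ * u⁻¹ ∈ W := by
  constructor
  · intro hg u hu
    have h := conj_eq_of_mem_centralizer (Subgroup.mem_comap.1 hg)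
      (Subgroup.mem_map_of_mem (QuotientGroup.mk' W) hu)
    rw [← mul_inv_eq_one, ← map_inv, ← map_mul, ← map_mul, ← map_inv, ← map_mul] at h
    exact (QuotientGroup.eq_one_iff _).1 h
  · intro h
    refine Subgroup.mem_comap.2 (mem_centralizer_of_conj_eq ?_)
    rintro _ ⟨u, hu, rfl⟩
    rw [← mul_inv_eq_one, ← map_inv, ← map_mul, ← map_mul, ← map_inv, ← map_mul]
    exact (QuotientGroup.eq_one_iff _).2 (h u hu)

/-- Elements fixing `D ≤ U` pointwise and acting trivially on `U` modulo `D`. -/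
def stab (D U : Subgroup L) : Subgroup L where
  carrier := {n | n ∈ Subgroup.centralizer (D : Set L) ∧ ∀ u ∈ U, n * u * n⁻¹ * u⁻¹ ∈ D}
  one_mem' := ⟨one_mem _, fun u _ => by simp⟩
  mul_mem' := by
    rintro n m ⟨hn, hn'⟩ ⟨hm, hm'⟩
    refine ⟨mul_mem hn hm, fun u hu => ?_⟩
    have h1 := conj_eq_of_mem_centralizer hn (hm' u hu)
    have : n * m * u * (n * m)⁻¹ * u⁻¹ =
        (n * (m * u * m⁻¹ * u⁻¹) * n⁻¹) * (n * u * n⁻¹ * u⁻¹) := by group
    rw [this, h1]
    exact mul_mem (hm' u hu) (hn' u hu)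
  inv_mem' := by
    rintro n ⟨hn, hn'⟩
    refine ⟨inv_mem hn, fun u hu => ?_⟩
    have h1 := conj_eq_of_mem_centralizer (inv_mem hn) (hn' u hu)
    have : n⁻¹ * u * n⁻¹⁻¹ * u⁻¹ = (n⁻¹ * (n * u * n⁻¹ * u⁻¹) * n⁻¹⁻¹)⁻¹ := by group
    rw [this, h1]
    exact inv_mem (hn' u hu)

theorem elemMod_of_le_stab {D U E : Subgroup L} (hU : IsElementaryAbelian 2 U) (hD : D ≤ U)
    (hE : E ≤ stab D U) : ElemMod E U := by
  refine ⟨fun n hn => sq_mem_centralizer (fun w hw => hU.2 w (hD hw)) (hE hn).1 (hE hn).2,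
    fun n hn m hm => mem_centralizer_of_conj_eq fun u hu => ?_⟩
  have hcomm : ∀ a b : L, a ∈ E → b ∈ E →
      a * (b * u * b⁻¹) * a⁻¹ = (b * u * b⁻¹ * u⁻¹) * (a * u * a⁻¹ * u⁻¹) * u := by
    intro a b ha hb
    calc a * (b * u * b⁻¹) * a⁻¹
        = (a * (b * u * b⁻¹ * u⁻¹) * a⁻¹) * (a * u * a⁻¹) := by group
      _ = _ := by rw [conj_eq_of_mem_centralizer (hE ha).1 ((hE hb).2 u hu)]; group
  have heq : n * (m * u * m⁻¹) * n⁻¹ = m * (n * u * n⁻¹) * m⁻¹ := by
    rw [hcomm n m hn hm, hcomm m n hm hn, CfsgLib.ThompsonJ.isElementaryAbelian_comm hU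
      (hD ((hE hm).2 u hu)) (hD ((hE hn).2 u hu))]
  set u' := n⁻¹ * m⁻¹ * u * m * n with hu'
  calc n * m * n⁻¹ * m⁻¹ * u * (n * m * n⁻¹ * m⁻¹)⁻¹
      = (n * m) * u' * (n * m)⁻¹ := by rw [hu']; group
    _ = u := by
      have hu'U : ∀ w, w = u' → w ∈ U → n * (m * w * m⁻¹) * n⁻¹ = m * (n * w * n⁻¹) * m⁻¹ := by
        intro w _ hw
        have hcomm' : ∀ a b : L, a ∈ E → b ∈ E →
            a * (b * w * b⁻¹) * a⁻¹ = (b * w * b⁻¹ * w⁻¹) * (a * w * a⁻¹ * w⁻¹) * w := by
          intro a b ha hb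
          calc a * (b * w * b⁻¹) * a⁻¹
              = (a * (b * w * b⁻¹ * w⁻¹) * a⁻¹) * (a * w * a⁻¹) := by group
            _ = _ := by rw [conj_eq_of_mem_centralizer (hE ha).1 ((hE hb).2 w hw)]; group
        rw [hcomm' n m hn hm, hcomm' m n hm hn, CfsgLib.ThompsonJ.isElementaryAbelian_comm hU
          (hD ((hE hm).2 w hw)) (hD ((hE hn).2 w hw))]
      have hmem : u' ∈ U := by
        have hcl : ∀ g ∈ E, ∀ w ∈ U, g * w * g⁻¹ ∈ U := fun g hg w hw => by
          have := U.mul_mem (hD ((hE hg).2 w hw)) hw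
          simpa using this
        have h1 := hcl _ (inv_mem hn) _ (hcl _ (inv_mem hm) u hu)
        simpa [hu', mul_assoc] using h1
      have h2 := hu'U u' rfl hmem
      calc (n * m) * u' * (n * m)⁻¹ = n * (m * u' * m⁻¹) * n⁻¹ := by group
        _ = m * (n * u' * n⁻¹) * m⁻¹ := h2
        _ = u := by rw [hu']; group

variable [Finite L]

theorem false_of_quadratic_offender [Group.IsSolvable L]
    (h4 : ¬ Involves (Equiv.Perm (Fin 4)) L) {U : Subgroup L} [U.Normal]
    (hU : IsElementaryAbelian 2 U)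
    (hfam : ∀ E : Subgroup L, E ≤ rad2 U → ElemMod E U → actCard E U ^ 2 ≤ fixIdx E U)
    {A : Subgroup L} (hA : IsElementaryAbelian 2 A)
    (hquad : ∀ u ∈ U, ∀ a ∈ A, ∀ b ∈ A,
      b * (a * u * a⁻¹ * u⁻¹) * b⁻¹ = a * u * a⁻¹ * u⁻¹)
    (hAC : ¬ A ≤ Subgroup.centralizer (U : Set L)) (hoff : fixIdx A U ≤ actCard A U) : False := by
  classical
  set C := Subgroup.centralizer (U : Set L) with hC
  set R := rad2 U with hRdef
  set A1 := A ⊓ R with hA1
  set F := U ⊓ Subgroup.centralizer (A : Set L) with hF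
  have hAem : ∀ V : Subgroup L, ElemMod A V := fun V => elemMod_of_isElementaryAbelian hA V
  have hCR : C ≤ R := centralizer_le_rad2 U
  set t := (A ⊓ R).relIndex A with ht
  have hA1C : A1 ⊓ C = A ⊓ C := by rw [hA1, inf_assoc, inf_eq_right.2 hCR]
  have hst : actCard A1 U * t = actCard A U :=
    actCard_mul inf_le_left (inf_le_inf_left A hCR)
  have hb1 : t ^ 2 ≤ fixIdx A U := sq_relIndex_rad2_le _ L h4 U le_rfl hU A (hAem U)
  have hb2 : actCard A1 U ^ 2 ≤ fixIdx A1 U := hfam A1 inf_le_right ((hAem U).mono inf_le_left)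
  have hb3 : fixIdx A1 U ≤ fixIdx A U := fixIdx_le_of_le inf_le_left
  have htpos : 0 < t := relIndex_pos _ _
  have hspos : 0 < actCard A1 U := relIndex_pos _ _
  have hs : actCard A1 U = t := by
    have h1 : t ^ 2 ≤ actCard A1 U * t := hb1.trans (hoff.trans hst.ge)
    have h2 : actCard A1 U ^ 2 ≤ actCard A1 U * t := hb2.trans (hb3.trans (hoff.trans hst.ge))
    exact le_antisymm (Nat.le_of_mul_le_mul_left (by rw [← pow_two]; exact h2) hspos)
      (Nat.le_of_mul_le_mul_right (by rw [← pow_two]; exact h1) htpos)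
  have hI : fixIdx A U = t ^ 2 := le_antisymm (by rw [pow_two]; rw [← hst, hs] at hoff; exact hoff) hb1
  have ht2 : 2 ≤ t := by
    by_contra h
    have h1 : t = 1 := by omega
    have h2 : actCard A U = 1 := by rw [← hst, hs, h1]
    exact hAC fun a ha => ((Subgroup.relIndex_eq_one.1 h2) ha).2
  have hF1 : U ⊓ Subgroup.centralizer (A1 : Set L) ≤ F := by
    have hle : F ≤ U ⊓ Subgroup.centralizer (A1 : Set L) :=
      inf_le_inf_left U (Subgroup.centralizer_le inf_le_left)
    have h := Subgroup.relIndex_mul_relIndex F _ U hle inf_le_left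
    have hb : t ^ 2 ≤ fixIdx A1 U := hs ▸ hb2
    refine Subgroup.relIndex_eq_one.1 (le_antisymm ?_ (relIndex_pos _ _))
    have e1 : F.relIndex (U ⊓ Subgroup.centralizer (A1 : Set L)) * fixIdx A1 U = t ^ 2 := h.trans hI
    by_contra hlt
    have hp : 0 < t ^ 2 := by positivity
    have := Nat.mul_le_mul (Nat.lt_of_not_le hlt : 2 ≤ _) hb
    omega
  -- `W`, minimal with `U = W ⊔ F`
  obtain ⟨W, ⟨hWn, hWU, hWF⟩, hWmin⟩ := Set.Finite.exists_minimal
    (s := {W : Subgroup L | W.Normal ∧ W ≤ U ∧ U ≤ W ⊔ F}) (Set.toFinite _)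
    ⟨U, inferInstance, le_rfl, le_sup_left⟩
  haveI := hWn
  have hWne : W ≠ ⊥ := by
    intro h
    rw [h, bot_sup_eq] at hWF
    exact hAC (Subgroup.le_centralizer_iff.1 (hWF.trans inf_le_right))
  obtain ⟨W0, ⟨hW0n, hW0W, hW0ne⟩, hW0max⟩ := Set.Finite.exists_maximal
    (s := {X : Subgroup L | X.Normal ∧ X ≤ W ∧ X ≠ W}) (Set.toFinite _)
    ⟨⊥, inferInstance, bot_le, Ne.symm hWne⟩
  haveI := hW0n
  have hW0F : ¬ U ≤ W0 ⊔ F := fun h =>
    hW0ne (le_antisymm hW0W (hWmin ⟨hW0n, hW0W.trans hWU, h⟩ hW0W))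
  set q := QuotientGroup.mk' W0 with hq
  have hqs : Function.Surjective q := QuotientGroup.mk'_surjective W0
  have hq1 : ∀ g, q g = 1 ↔ g ∈ W0 := fun g => QuotientGroup.eq_one_iff g
  set W' := W.map q with hW'
  haveI hW'n : W'.Normal := Subgroup.Normal.map hWn q hqs
  have hWe : IsElementaryAbelian 2 W := CfsgLib.ThompsonJ.isElementaryAbelian_mono hU hWU
  have hW0e : IsElementaryAbelian 2 W0 := CfsgLib.ThompsonJ.isElementaryAbelian_mono hWe hW0W
  have hW'e : IsElementaryAbelian 2 W' := CfsgLib.ThompsonJ.isElementaryAbelian_map hWe q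
  have hirr : ∀ X : Subgroup (L ⧸ W0), X.Normal → X ≤ W' → X = ⊥ ∨ X = W' := by
    intro X hX hXW
    haveI := hX
    have h1 : W0 ≤ X.comap q := fun g hg => by
      rw [Subgroup.mem_comap, (hq1 g).2 hg]; exact one_mem X
    have h2 : X.comap q ≤ W := by
      refine (Subgroup.comap_mono hXW).trans ?_
      rw [hW', Subgroup.comap_map_eq_self]
      rw [QuotientGroup.ker_mk']; exact hW0W
    rcases eq_or_ne (X.comap q) W with h | h
    · exact Or.inr (by rw [← Subgroup.map_comap_eq_self_of_surjective hqs X, h])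
    · refine Or.inl ?_
      have : X.comap q = W0 := le_antisymm (hW0max ⟨inferInstance, h2, h⟩ h1) h1
      rw [← Subgroup.map_comap_eq_self_of_surjective hqs X, this, hq, QuotientGroup.map_mk'_self]
  have hR' : rad2 W' ≤ Subgroup.centralizer (W' : Set (L ⧸ W0)) :=
    rad2_le_centralizer_of_minimal hW'e hirr
  have h4' := not_involves_quotient h4 W0
  have hAT : A ≤ centMod U W := by
    intro a ha
    rw [mem_centMod_iff]
    intro u hu
    have hu' := hWF hu
    rw [← SetLike.mem_coe, Subgroup.normal_mul] at hu'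
    obtain ⟨w, hw, c, hc, rfl⟩ := hu'
    have hac : a * c * a⁻¹ = c := by
      rw [Subgroup.mem_centralizer_iff.1 hc.2 a ha, mul_inv_cancel_right]
    have : a * (w * c) * a⁻¹ * (w * c)⁻¹ = (a * w * a⁻¹) * w⁻¹ := by
      calc a * (w * c) * a⁻¹ * (w * c)⁻¹ = (a * w * a⁻¹) * (a * c * a⁻¹) * c⁻¹ * w⁻¹ := by group
        _ = _ := by rw [hac]; group
    rw [this]
    exact W.mul_mem (hWn.conj_mem w hw a) (W.inv_mem hw)
  set Rout := rad2 W0 ⊓ centMod U W with hRout
  have hN3 : rad2 W0 ⊓ centMod U W ⊓ centMod W W0 ≤ R := by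
    refine le_rad2 fun n hn => ?_
    obtain ⟨⟨hn1, hn2⟩, hn3⟩ := hn
    obtain ⟨k, hk⟩ := exists_pow_mem_of_mem_rad2 hn1
    refine ⟨k + 1 + 1, ?_⟩
    rw [pow_succ, pow_mul]
    refine sq_mem_centralizer (N₀ := W) (fun w hw => hU.2 w (hWU hw)) ?_
      (mem_centMod_iff.1 (pow_mem hn2 _))
    rw [pow_succ, pow_mul]
    exact sq_mem_centralizer (N₀ := W0) (fun w hw => hU.2 w (hWU (hW0W hw))) hk
      (mem_centMod_iff.1 (pow_mem hn3 _))
  -- the index computation
  have hIW : fixIdx A W = t ^ 2 := by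
    rw [← hI]
    have hUW : U = F ⊔ W := le_antisymm (hWF.trans_eq (sup_comm _ _)) (sup_le inf_le_left hWU)
    show (W ⊓ Subgroup.centralizer (A : Set L)).relIndex W = F.relIndex U
    conv_rhs => arg 2; rw [hUW]
    rw [relIndex_sup_eq (hWU.trans (le_normalizer_of_elem hU inf_le_left)),
      ← Subgroup.inf_relIndex_left W F, hF, ← inf_assoc, inf_eq_left.2 hWU]
  set f := (A ⊓ rad2 W0).relIndex A with hf
  have hfix0 : f ^ 2 ≤ fixIdx A W0 := sq_relIndex_rad2_le _ L h4 W0 le_rfl hW0e A (hAem W0)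
  have hfix' : fixIdx (A.map q) W' * fixIdx A W0 ≤ t ^ 2 := hIW ▸ fixIdx_map_mul_le hWe hW0W A
  have hfpos : 0 < f := relIndex_pos _ _
  -- `A` is nontrivial on `W'`
  have hAW' : ¬ A.map q ≤ Subgroup.centralizer (W' : Set (L ⧸ W0)) := by
    intro h
    apply hW0F
    have hAc : A ≤ centMod W W0 := fun a ha => h (Subgroup.mem_map_of_mem q ha)
    have htf : t ≤ f := by
      refine relIndex_le_of_le_left ?_ A
      exact fun a ha => ⟨ha.1, hN3 ⟨⟨ha.2, hAT ha.1⟩, hAc ha.1⟩⟩
    set C0 := W ⊓ Subgroup.centralizer (A : Set L) with hC0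
    have hmul : C0.relIndex (C0 ⊔ W0) * (C0 ⊔ W0).relIndex W = t ^ 2 :=
      (Subgroup.relIndex_mul_relIndex _ _ _ le_sup_left (sup_le inf_le_left hW0W)).trans hIW
    have h1 : C0.relIndex (C0 ⊔ W0) = fixIdx A W0 := by
      rw [relIndex_sup_eq (hW0W.trans (le_normalizer_of_elem hWe inf_le_left)),
        ← Subgroup.inf_relIndex_left, ← inf_assoc, inf_eq_left.2 hW0W]
      rfl
    have h2 : (C0 ⊔ W0).relIndex W = 1 := by
      refine le_antisymm ?_ (relIndex_pos _ _)
      by_contra hlt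
      have h3 : t ^ 2 ≤ fixIdx A W0 := (Nat.pow_le_pow_left htf 2).trans hfix0
      have := Nat.mul_le_mul h3 (Nat.lt_of_not_le hlt : 2 ≤ _)
      rw [h1] at hmul
      have hp : 0 < t ^ 2 := by positivity
      omega
    refine hWF.trans (sup_le ((Subgroup.relIndex_eq_one.1 h2).trans (sup_le ?_ le_sup_left)) le_sup_right)
    exact le_sup_of_le_right (inf_le_inf_right _ hWU)
  have hA'em : ∀ B : Subgroup L, B ≤ A → ElemMod (B.map q) W' := fun B hB =>
    ((hAem W).mono hB).map q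
  set e := actCard (A.map q) W' with he
  have hefix : e ^ 2 ≤ fixIdx (A.map q) W' := sq_actCard_le_fixIdx h4' hW'e hR' _ (hA'em A le_rfl)
  have he2 : 2 ≤ e := by
    by_contra h
    have h1 : e = 1 := le_antisymm (by omega) (relIndex_pos _ _)
    exact hAW' fun a ha => ((Subgroup.relIndex_eq_one.1 h1) ha).2
  set A0 := A ⊓ rad2 W0 with hA0
  set g := actCard (A0.map q) W' with hg
  have hgrel : g = (A0 ⊓ centMod W W0).relIndex A0 := by
    rw [hg, actCard, Subgroup.inf_relIndex_left, Subgroup.inf_relIndex_left, centMod,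
      Subgroup.relIndex_comap]
  have htgf : t ≤ g * f := by
    rw [hgrel, hf, Subgroup.relIndex_mul_relIndex _ _ _ inf_le_left (inf_le_left : A0 ≤ A)]
    refine relIndex_le_of_le_left ?_ A
    exact fun a ha => ⟨ha.1.1, hN3 ⟨⟨ha.1.2, hAT ha.1.1⟩, ha.2⟩⟩
  have hext : fixIdx (A0.map q) W' ≤ g ^ 2 := by
    refine Nat.le_of_mul_le_mul_right ?_ (pow_pos hfpos 2)
    calc fixIdx (A0.map q) W' * f ^ 2 ≤ fixIdx (A.map q) W' * fixIdx A W0 :=
          Nat.mul_le_mul (fixIdx_le_of_le (Subgroup.map_mono inf_le_left)) hfix0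
      _ ≤ t ^ 2 := hfix'
      _ ≤ (g * f) ^ 2 := Nat.pow_le_pow_left htgf 2
      _ = g ^ 2 * f ^ 2 := by ring
  have hA0nt : ¬ A0.map q ≤ Subgroup.centralizer (W' : Set (L ⧸ W0)) := by
    intro h
    have hg1 : g = 1 := by rw [hg, actCard, inf_eq_left.2 h, Subgroup.relIndex_self]
    rw [hg1, one_mul] at htgf
    have h1 : e ^ 2 * f ^ 2 ≤ 1 * f ^ 2 := by
      rw [one_mul]
      exact ((Nat.mul_le_mul hefix hfix0).trans hfix').trans (Nat.pow_le_pow_left htgf 2)
    have h2 := Nat.le_of_mul_le_mul_right h1 (pow_pos hfpos 2)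
    have h3 := Nat.pow_le_pow_left he2 2
    omega
  obtain ⟨_, ⟨a, ha, rfl⟩, haC, ha4⟩ :=
    exists_small_fixIdx h4' hW'e hR' _ (hA'em A0 inf_le_left) hA0nt hext
  have haA : a ∈ A := ha.1
  have haR : a ∈ Rout := ⟨ha.2, hAT haA⟩
  have haa : a * a = 1 := by rw [← pow_two]; exact hA.2 a haA
  have hai : a⁻¹ = a := inv_eq_of_mul_eq_one_right haa
  -- an element inverted by `a`
  set C' := Subgroup.centralizer (W' : Set (L ⧸ W0)) with hC'
  set π := QuotientGroup.mk' C' with hπ
  have hπ1 : ∀ g, π g = 1 ↔ g ∈ C' := fun g => QuotientGroup.eq_one_iff g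
  obtain ⟨-, a'', v, p, -, -, -, ha'', hp, hp5, hvp, hvinv, hvC, -⟩ :=
    exists_inverted h4' hW'e hR'
      (A := Subgroup.zpowers (q a)) ((hA'em A0 inf_le_left).mono
        (Subgroup.zpowers_le.2 (Subgroup.mem_map_of_mem q ha)))
      (fun h => haC (h (Subgroup.mem_zpowers _)))
  obtain ⟨u, rfl⟩ := hqs v
  set z := π (q a) with hz
  set y := π (q u) with hy
  have hzz : z * z = 1 := by rw [hz, ← map_mul, ← map_mul, haa, map_one, map_one]
  have hyp : y ^ p = 1 := by rw [hy, ← map_pow, hπ1]; exact hvp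
  have hy1 : y ≠ 1 := fun h => hvC ((hπ1 _).1 h)
  have hyord : orderOf y = p := haveI := Fact.mk hp; orderOf_eq_prime hyp hy1
  have hzy : z * y * z⁻¹ = y⁻¹ := by
    have h' : π a'' * y * (π a'')⁻¹ * y = 1 := by
      rw [hy, ← map_inv, ← map_mul, ← map_mul, ← map_mul, hπ1]; exact hvinv
    obtain ⟨i, hi⟩ := Subgroup.mem_zpowers_iff.1 ha''
    have hi' : π a'' = z ^ i := by rw [← hi, map_zpow]
    rcases Int.even_or_odd' i with ⟨j, rfl | rfl⟩
    · exfalso
      rw [hi', zpow_mul, zpow_two, hzz, one_zpow, one_mul, inv_one, mul_one] at h'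
      refine hy1 (pow_eq_one_of_coprime_pow hyp (show y ^ 2 = 1 by rw [pow_two]; exact h') ?_)
      exact (Nat.coprime_primes hp Nat.prime_two).2 (by omega)
    · rw [hi', zpow_add_one, zpow_mul, zpow_two, hzz, one_zpow, one_mul] at h'
      exact eq_inv_of_mul_eq_one_left h'
  set w := u * a * u⁻¹ * a with hw
  have hwR : w ∈ Rout := mul_mem ((inferInstance : Rout.Normal).conj_mem a haR u) haR
  have hwimg : π (q w) = y ^ 2 := by
    have hzi : z⁻¹ = z := inv_eq_of_mul_eq_one_right hzz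
    calc π (q w) = y * z * y⁻¹ * z := by
          rw [hw, map_mul, map_mul, map_mul, map_inv, map_mul, map_mul, map_mul, map_inv]
      _ = y * (z * y * z⁻¹)⁻¹ := by rw [mul_inv_rev, mul_inv_rev, inv_inv, hzi]; group
      _ = y ^ 2 := by rw [hzy, inv_inv, pow_two]
  have hwinv : a * w * a⁻¹ = w⁻¹ := by
    rw [hw]
    simp only [mul_inv_rev, inv_inv, hai, mul_assoc, haa, mul_one]
  obtain ⟨k, m, hm, hkm⟩ := Nat.exists_eq_pow_mul_and_not_dvd (orderOf_pos w).ne' p hp.ne_one
  set x := w ^ m with hx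
  have hxpk : x ^ p ^ k = 1 := by rw [hx, ← pow_mul, mul_comm, ← hkm, pow_orderOf_eq_one]
  have hxR : x ∈ Rout := pow_mem hwR m
  have hxinv : a * x * a⁻¹ = x⁻¹ := by rw [hx, ← conj_pow, hwinv, inv_pow]
  have hpodd : Odd p := hp.odd_of_ne_two (by omega)
  have hxW' : q x ∉ C' := by
    intro h
    have h1 : y ^ (2 * m) = 1 := by
      rw [pow_mul, ← hwimg, ← map_pow, ← map_pow, hπ1]; exact h
    refine hy1 (pow_eq_one_of_coprime_pow h1 hyp ?_)
    exact Nat.Coprime.mul_left ((Nat.coprime_primes Nat.prime_two hp).2 (by omega))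
      (hp.coprime_iff_not_dvd.2 hm).symm
  have hxW0 : x ∈ Subgroup.centralizer (W0 : Set L) :=
    mem_centralizer_of_mem_rad2 hxR.1 (hpodd.pow (n := k)) (by rw [hxpk]; exact one_mem _)
  have hxpU : x ^ p ∈ C := by
    refine mem_centralizer_of_mem_rad2 (hN3 ⟨pow_mem hxR p, ?_⟩) (hpodd.pow (n := k)) ?_
    · show q (x ^ p) ∈ C'
      rw [← hπ1, map_pow, map_pow, hx, map_pow, map_pow, hwimg, ← pow_mul, ← pow_mul,
        ← hyord, show 2 * (m * orderOf y) = orderOf y * (2 * m) by ring, pow_mul,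
        pow_orderOf_eq_one, one_pow]
    · rw [← pow_mul, mul_comm, pow_mul, hxpk, one_pow]; exact one_mem _
  have hxinv' : x * a * x⁻¹ * a = x ^ 2 := by
    calc x * a * x⁻¹ * a = x * a * x⁻¹ * a⁻¹ := by rw [hai]
      _ = x * (a * x * a⁻¹)⁻¹ := by group
      _ = x ^ 2 := by rw [hxinv, inv_inv, pow_two]
  -- `[U, A₁] ≤ W₀ ⊓ F`
  have hδ : ∀ b ∈ A1, b ∈ stab (W0 ⊓ F) U := by
    intro b hb
    refine ⟨mem_centralizer_of_conj_eq fun d hd => ?_, fun v hv => ?_⟩
    · rw [Subgroup.mem_centralizer_iff.1 hd.2.2 b hb.1, mul_inv_cancel_right]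
    have hqb : q b ∈ C' := by
      haveI : (R.map q).Normal := Subgroup.Normal.map inferInstance q hqs
      refine hR' (le_rad2 (N := R.map q) ?_ (Subgroup.mem_map_of_mem q hb.2))
      rintro _ ⟨r, hr, rfl⟩
      obtain ⟨j, hj⟩ := exists_pow_mem_of_mem_rad2 hr
      exact ⟨j, by rw [← map_pow]; exact map_mem_centralizer q (Subgroup.centralizer_le hWU hj)⟩
    have hv' := hWF hv
    rw [← SetLike.mem_coe, Subgroup.normal_mul] at hv'
    obtain ⟨w1, hw1, c, hc, rfl⟩ := hv'
    have hbc : b * c * b⁻¹ = c := by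
      rw [Subgroup.mem_centralizer_iff.1 hc.2 b hb.1, mul_inv_cancel_right]
    have heq : b * (w1 * c) * b⁻¹ * (w1 * c)⁻¹ = b * w1 * b⁻¹ * w1⁻¹ := by
      calc b * (w1 * c) * b⁻¹ * (w1 * c)⁻¹ = (b * w1 * b⁻¹) * (b * c * b⁻¹) * c⁻¹ * w1⁻¹ := by group
        _ = _ := by rw [hbc]; group
    refine ⟨heq ▸ mem_centMod_iff.1 (Subgroup.mem_comap.2 hqb) w1 hw1, ?_, ?_⟩
    · exact U.mul_mem ((inferInstance : U.Normal).conj_mem _ hv b) (U.inv_mem hv)
    · exact Subgroup.mem_centralizer_iff.2 fun b' hb' =>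
        mul_inv_eq_iff_eq_mul.1 (hquad _ hv b hb.1 b' hb')
  set G1 := Subgroup.closure ({a, x} : Set L) with hG1
  have hG1D : G1 ≤ Subgroup.centralizer ((W0 ⊓ F : Subgroup L) : Set L) := by
    refine (Subgroup.closure_le _).2 ?_
    rintro g (rfl | rfl)
    · exact Subgroup.mem_centralizer_iff.2 fun d hd =>
        (Subgroup.mem_centralizer_iff.1 hd.2.2 g haA).symm
    · exact Subgroup.centralizer_le inf_le_left hxW0
  set E := Subgroup.closure {n | ∃ g ∈ G1, ∃ b ∈ A1, n = g * b * g⁻¹} with hE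
  have hER : E ≤ R := by
    refine (Subgroup.closure_le _).2 ?_
    rintro _ ⟨g', -, b, hb, rfl⟩
    exact (inferInstance : R.Normal).conj_mem b hb.2 g'
  have hES : E ≤ stab (W0 ⊓ F) U := by
    refine (Subgroup.closure_le _).2 ?_
    rintro _ ⟨g', hg', b, hb, rfl⟩
    have hgc := hG1D hg'
    obtain ⟨hb1, hb2⟩ := hδ b hb
    refine ⟨mul_mem (mul_mem hgc hb1) (inv_mem hgc), fun v hv => ?_⟩
    have hd := hb2 (g'⁻¹ * v * g') (by simpa using (inferInstance : U.Normal).conj_mem v hv g'⁻¹)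
    have := conj_eq_of_mem_centralizer hgc hd
    have heq : g' * b * g'⁻¹ * v * (g' * b * g'⁻¹)⁻¹ * v⁻¹ =
        g' * (b * (g'⁻¹ * v * g') * b⁻¹ * (g'⁻¹ * v * g')⁻¹) * g'⁻¹ := by group
    rw [heq, this]
    exact hd
  have hEem : ElemMod E U := elemMod_of_le_stab hU (inf_le_right.trans inf_le_left) hES
  have hEb := hfam E hER hEem
  -- upper bound on the index
  have hY : F ⊓ Subgroup.centralizer ({x} : Set L) ≤ U ⊓ Subgroup.centralizer (E : Set L) := by
    refine le_inf (inf_le_left.trans inf_le_left) (Subgroup.le_centralizer_iff.1 ?_)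
    refine (Subgroup.closure_le _).2 ?_
    rintro _ ⟨g', hg', b, hb, rfl⟩
    have hg1 : g' ∈ Subgroup.centralizer
        ((F ⊓ Subgroup.centralizer ({x} : Set L) : Subgroup L) : Set L) := by
      refine (Subgroup.closure_le _).2 ?_ hg'
      rintro t' (rfl | rfl)
      · exact Subgroup.mem_centralizer_iff.2 fun d hd =>
          (Subgroup.mem_centralizer_iff.1 hd.1.2 t' haA).symm
      · exact Subgroup.mem_centralizer_iff.2 fun d hd => Subgroup.mem_centralizer_singleton_iff.1 hd.2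
    refine mul_mem (mul_mem hg1 ?_) (inv_mem hg1)
    exact Subgroup.mem_centralizer_iff.2 fun d hd =>
      (Subgroup.mem_centralizer_iff.1 hd.1.2 b hb.1).symm
  have hidx4 : (F ⊓ Subgroup.centralizer ({x} : Set L)).relIndex F ≤ 4 := by
    have h1 : F ⊓ (Subgroup.centralizer ({q x} : Set (L ⧸ W0))).comap q ≤
        F ⊓ Subgroup.centralizer ({x} : Set L) := by
      rintro v ⟨hv, hvx⟩
      refine ⟨hv, Subgroup.mem_centralizer_singleton_iff.2 ?_⟩
      have hd : x * v * x⁻¹ * v⁻¹ ∈ W0 := by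
        rw [← hq1, map_mul, map_mul, map_mul, map_inv, map_inv,
          ← Subgroup.mem_centralizer_singleton_iff.1 (Subgroup.mem_comap.1 hvx),
          mul_inv_cancel_right, mul_inv_cancel]
      exact (mul_inv_eq_iff_eq_mul.1 (pow_conj_eq (W := U) hU.2 (hWU (hW0W hd))
        (conj_eq_of_mem_centralizer hxW0 hd) (by group) (p ^ k) hpodd.pow
        (by rw [hxpk]; group))).symm
    refine (relIndex_le_of_le_left h1 F).trans ?_
    rw [Subgroup.inf_relIndex_left, Subgroup.relIndex_comap]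
    set U' := U.map q with hU'
    haveI hU'n : U'.Normal := Subgroup.Normal.map inferInstance q hqs
    set a2 := q x * q a * (q x)⁻¹ with ha2
    have hFa : F.map q ≤ Subgroup.centralizer ({q a} : Set (L ⧸ W0)) := by
      rintro _ ⟨v, hv, rfl⟩
      rw [Subgroup.mem_centralizer_singleton_iff, ← map_mul, ← map_mul,
        Subgroup.mem_centralizer_iff.1 hv.2 a haA]
    have h2 : F.map q ⊓ Subgroup.centralizer ({a2} : Set (L ⧸ W0)) ≤
        Subgroup.centralizer ({q x} : Set (L ⧸ W0)) := by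
      rintro v ⟨hv, hv2⟩
      rw [Subgroup.mem_centralizer_singleton_iff]
      have c2 : Commute v a2 := Subgroup.mem_centralizer_singleton_iff.1 hv2
      have c1 : Commute v (q a) := Subgroup.mem_centralizer_singleton_iff.1 (hFa hv)
      have c3 : Commute v (q x ^ 2) := by
        rw [← map_pow, ← hxinv', map_mul, map_mul, map_mul, map_inv]
        exact c2.mul_right c1
      have c5 : q x ∈ Subgroup.centralizer ({v} : Set (L ⧸ W0)) :=
        mem_of_pow_mem_coprime (Subgroup.mem_centralizer_singleton_iff.2 c3.symm.eq)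
          (n := p ^ k) (by rw [← map_pow, hxpk, map_one]; exact one_mem _)
          ((Nat.coprime_two_left.2 hpodd).pow_right k)
      exact (Subgroup.mem_centralizer_singleton_iff.1 c5).symm
    calc (Subgroup.centralizer ({q x} : Set (L ⧸ W0))).relIndex (F.map q)
        ≤ (Subgroup.centralizer ({a2} : Set (L ⧸ W0))).relIndex (F.map q) := by
          rw [← Subgroup.inf_relIndex_left (F.map q), ← Subgroup.inf_relIndex_left (F.map q)
            (Subgroup.centralizer ({a2} : Set (L ⧸ W0)))]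
          exact relIndex_le_of_le_left (le_inf inf_le_left h2) _
      _ ≤ (Subgroup.centralizer ({a2} : Set (L ⧸ W0))).relIndex U' :=
          Subgroup.relIndex_le_of_le_right (Subgroup.map_mono inf_le_left)
            Subgroup.index_ne_zero_of_finite
      _ = (Subgroup.centralizer ({q a} : Set (L ⧸ W0))).relIndex U' := by
          have hcm : (Subgroup.centralizer ({q a} : Set (L ⧸ W0))).map (MulAut.conj (q x)).toMonoidHom =
              Subgroup.centralizer ({a2} : Set (L ⧸ W0)) := by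
            ext v
            simp only [Subgroup.mem_map, Subgroup.mem_centralizer_singleton_iff,
              MulEquiv.coe_toMonoidHom, MulAut.conj_apply, ha2]
            constructor
            · rintro ⟨d, hd, rfl⟩
              have := congrArg (MulAut.conj (q x)) hd
              simpa [mul_assoc] using this
            · intro hv
              refine ⟨(q x)⁻¹ * v * q x, ?_, by group⟩
              have := congrArg (MulAut.conj (q x)⁻¹) hv
              simpa [mul_assoc] using this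
          have hUx : U'.map (MulAut.conj (q x)).toMonoidHom = U' :=
            Subgroup.mem_normalizer_iff_map_conj_eq.mp (by rw [Subgroup.normalizer_eq_top]; trivial)
          rw [← hcm]
          conv_lhs => arg 2; rw [← hUx]
          exact Subgroup.relIndex_map_map_of_injective _ _ (MulAut.conj (q x)).injective
      _ ≤ fixIdx (Subgroup.zpowers (q a)) W' := by
          set X := U' ⊓ Subgroup.centralizer ({q a} : Set (L ⧸ W0)) with hX
          have hUX : U' = X ⊔ W' := by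
            refine le_antisymm ?_ (sup_le inf_le_left (Subgroup.map_mono hWU))
            refine (Subgroup.map_mono hWF).trans ?_
            rw [Subgroup.map_sup]
            exact sup_le le_sup_right
              (le_sup_of_le_left (le_inf (Subgroup.map_mono inf_le_left) hFa))
          have hU'e : IsElementaryAbelian 2 U' := CfsgLib.ThompsonJ.isElementaryAbelian_map hU q
          rw [← Subgroup.inf_relIndex_left, ← hX]
          conv_lhs => arg 2; rw [hUX]
          rw [relIndex_sup_eq ((Subgroup.map_mono hWU).trans (le_normalizer_of_elem hU'e inf_le_left)),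
            ← Subgroup.inf_relIndex_left, ← inf_assoc, inf_eq_left.2 (Subgroup.map_mono hWU)]
          exact relIndex_le_of_le_left (inf_le_inf_left _
            (Subgroup.centralizer_le (Set.singleton_subset_iff.2 (Subgroup.mem_zpowers _)))) _
      _ ≤ 4 := ha4
  have hup : fixIdx E U ≤ 4 * t ^ 2 := by
    refine (relIndex_le_of_le_left hY U).trans ?_
    rw [← Subgroup.relIndex_mul_relIndex _ _ _ inf_le_left (inf_le_left : F ≤ U), ← hI]
    exact Nat.mul_le_mul hidx4 le_rfl
  -- lower bound on the order of the image of `E`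
  set φ := QuotientGroup.mk' C with hφ
  have hφ1 : ∀ g, φ g = 1 ↔ g ∈ C := fun g => QuotientGroup.eq_one_iff g
  set Eb := E.map φ with hEb'
  have hEbe : IsElementaryAbelian 2 Eb := by
    refine CfsgLib.ThompsonJ.isElementaryAbelian_iff.2 ⟨?_, ?_⟩
    · rintro _ ⟨b, hb, rfl⟩
      rw [Subgroup.mem_centralizer_iff]
      rintro _ ⟨c, hc, rfl⟩
      rw [← mul_inv_eq_one, ← map_mul, ← map_mul, ← map_inv, ← map_mul, hφ1, mul_inv_rev, ← mul_assoc]
      exact hEem.2 c hc b hb
    · rintro _ ⟨b, hb, rfl⟩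
      rw [← map_pow, hφ1]
      exact hEem.1 b hb
  have hnormE : ∀ g ∈ G1, φ g ∈ Subgroup.normalizer (Eb : Set (L ⧸ C)) := by
    intro g hg
    refine Subgroup.le_normalizer_map φ ⟨g, ?_, rfl⟩
    refine CfsgLib.CoprimeAction.mem_normalizer_of_conj_mem fun n hn => ?_
    have hle : E.map (MulAut.conj g).toMonoidHom ≤ E := by
      rw [hE, MonoidHom.map_closure]
      refine Subgroup.closure_mono ?_
      rintro _ ⟨_, ⟨g', hg', b, hb, rfl⟩, rfl⟩
      exact ⟨g * g', mul_mem hg hg', b, hb,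
        show g * (g' * b * g'⁻¹) * g⁻¹ = g * g' * b * (g * g')⁻¹ by group⟩
    exact hle (Subgroup.mem_map_of_mem _ hn)
  have hA1E : A1 ≤ E := fun b hb => Subgroup.subset_closure ⟨1, one_mem _, b, hb, by group⟩
  have hxC : φ x ∉ Subgroup.centralizer (Eb : Set (L ⧸ C)) := by
    intro hcen
    have hxb : ∀ b ∈ A1, x * b * x⁻¹ * b⁻¹ ∈ C := fun b hb => by
      rw [← hφ1, map_mul, map_mul, map_mul, map_inv, map_inv,
        conj_eq_of_mem_centralizer hcen (Subgroup.mem_map_of_mem φ (hA1E hb)), mul_inv_cancel]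
    have hxF : ∀ d ∈ F, x * d * x⁻¹ ∈ F ∧ x⁻¹ * d * x ∈ F := by
      have key : ∀ g : L, (∀ b ∈ A1, g * b * g⁻¹ * b⁻¹ ∈ C) → ∀ d ∈ F, g * d * g⁻¹ ∈ F := by
        intro g hgb d hd
        have hdU : g * d * g⁻¹ ∈ U := (inferInstance : U.Normal).conj_mem d hd.1 g
        refine hF1 ⟨hdU, Subgroup.mem_centralizer_iff.2 fun b hb => mul_inv_eq_iff_eq_mul.1 ?_⟩
        have hfix : b * d * b⁻¹ = d := by
          rw [Subgroup.mem_centralizer_iff.1 hd.2 b hb.1, mul_inv_cancel_right]
        calc b * (g * d * g⁻¹) * b⁻¹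
            = (g * b * g⁻¹ * b⁻¹)⁻¹ * (g * (b * d * b⁻¹) * g⁻¹) * ((g * b * g⁻¹ * b⁻¹)⁻¹)⁻¹ := by
              group
          _ = g * d * g⁻¹ := by
              rw [hfix]; exact conj_eq_of_mem_centralizer (inv_mem (hgb b hb)) hdU
      refine fun d hd => ⟨key x hxb d hd, ?_⟩
      have := key x⁻¹ (fun b hb => ?_) d hd
      · rwa [inv_inv] at this
      · have h := (inferInstance : C.Normal).conj_mem _ (inv_mem (hxb b hb)) x⁻¹
        have e1 : x⁻¹ * (x * b * x⁻¹ * b⁻¹)⁻¹ * x⁻¹⁻¹ = x⁻¹ * b * x * b⁻¹ := by group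
        rw [e1] at h
        rwa [inv_inv]
    have hafix : ∀ d ∈ F, a * d * a⁻¹ = d := fun d hd => by
      rw [Subgroup.mem_centralizer_iff.1 hd.2 a haA, mul_inv_cancel_right]
    have haψ : a ∈ stab F U := ⟨mem_centralizer_of_conj_eq hafix, fun v hv =>
      ⟨U.mul_mem ((inferInstance : U.Normal).conj_mem v hv a) (U.inv_mem hv),
        Subgroup.mem_centralizer_iff.2 fun b hb =>
          mul_inv_eq_iff_eq_mul.1 (hquad v hv a haA b hb)⟩⟩
    have ha2ψ : x * a * x⁻¹ ∈ stab F U := by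
      refine ⟨mem_centralizer_of_conj_eq fun d hd => ?_, fun v hv => ?_⟩
      · calc x * a * x⁻¹ * d * (x * a * x⁻¹)⁻¹ = x * (a * (x⁻¹ * d * x) * a⁻¹) * x⁻¹ := by group
          _ = d := by rw [hafix _ (hxF d hd).2]; group
      · have h := haψ.2 (x⁻¹ * v * x) (by simpa using (inferInstance : U.Normal).conj_mem v hv x⁻¹)
        have e1 : x * a * x⁻¹ * v * (x * a * x⁻¹)⁻¹ * v⁻¹ =
            x * (a * (x⁻¹ * v * x) * a⁻¹ * (x⁻¹ * v * x)⁻¹) * x⁻¹ := by group
        rw [e1]
        exact (hxF _ h).1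
    have hx2 : x ^ 2 ∈ stab F U := hxinv' ▸ mul_mem ha2ψ haψ
    have h4x : (x ^ 2) ^ 2 ∈ C :=
      sq_mem_centralizer (N₀ := F) (fun d hd => hU.2 d hd.1) hx2.1 hx2.2
    have hxU : x ∈ C := by
      refine mem_of_pow_mem_coprime (m := 2 * 2) (n := p ^ k) (by rwa [pow_mul])
        (by rw [hxpk]; exact one_mem _) ?_
      exact Nat.Coprime.mul_left ((Nat.coprime_two_left.2 hpodd).pow_right k)
        ((Nat.coprime_two_left.2 hpodd).pow_right k)
    exact hxW' (map_mem_centralizer q (Subgroup.centralizer_le hWU hxU))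
  have haG1 : a ∈ G1 := Subgroup.subset_closure (by simp)
  have hxG1 : x ∈ G1 := Subgroup.subset_closure (by simp)
  have hlow := four_le_relIndex hEbe (hnormE x hxG1) (hnormE a haG1) hp hp5
    (by rw [← map_pow, (hφ1 _).2 hxpU]; exact one_mem _)
    (by
      rw [← map_inv, ← map_mul, ← map_mul, ← map_mul, hxinv, inv_mul_cancel, map_one]
      exact one_mem _)
    hxC
  set K := Eb ⊓ Subgroup.centralizer ({φ a} : Set (L ⧸ C)) with hK
  have hA1K : A1.map φ ≤ K := by
    refine le_inf (Subgroup.map_mono hA1E) ?_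
    rintro _ ⟨b, hb, rfl⟩
    rw [Subgroup.mem_centralizer_singleton_iff, ← map_mul, ← map_mul,
      CfsgLib.ThompsonJ.isElementaryAbelian_comm hA hb.1 haA]
  have hcard : 4 * t ≤ actCard E U := by
    rw [actCard_eq_card_map, ← hs, actCard_eq_card_map]
    calc 4 * Nat.card (A1.map φ) ≤ K.relIndex Eb * Nat.card K :=
          Nat.mul_le_mul hlow (Nat.le_of_dvd Nat.card_pos (Subgroup.card_dvd_of_le hA1K))
      _ = Nat.card Eb := by
          rw [mul_comm, ← Subgroup.relIndex_bot_left, Subgroup.relIndex_mul_relIndex _ _ _ bot_le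
            inf_le_left, Subgroup.relIndex_bot_left]
  have h16 := (Nat.pow_le_pow_left hcard 2).trans (hEb.trans hup)
  nlinarith

end CfsgLib.SFourFree
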